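import Mathlib

/-!
Two primes between `n` and `2 n` (Ramanujan's strengthening of Bertrand's postulate for two
primes).
-/

namespace Cfsg.Agent.RecogA

open Nat

theorem seven_mul_log_le {s : ℕ} (hs : 64 ≤ s) : 7 * (Nat.log 2 s + 1) ≤ s := by
  have hL : 6 ≤ Nat.log 2 s := Nat.le_log_of_pow_le (by norm_num) (by norm_num; omega)
  have hpow : ∀ k, 6 ≤ k → 7 * (k + 1) ≤ 2 ^ k := by
    intro k hk
    induction k, hk using Nat.le_induction with
    | base => norm_num
    | succ k hk ih => rw [pow_succ]; omega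
  exact (hpow _ hL).trans (Nat.pow_log_le_self 2 (by omega))

theorem two_bertrand_inequality {n : ℕ} (hn : 2048 ≤ n) :
    n * (2 * n) ^ (Nat.sqrt (2 * n) + 1) * 4 ^ (2 * n / 3) ≤ 4 ^ n := by
  set s := Nat.sqrt (2 * n) with hs
  have hs64 : 64 ≤ s := by
    rw [hs, Nat.le_sqrt]
    omega
  set L := Nat.log 2 s + 1 with hL
  have hsL : s + 1 ≤ 2 ^ L := Nat.lt_pow_succ_log_self (by norm_num) s
  have h2n : 2 * n ≤ 4 ^ L := by
    have h1 : 2 * n < (s + 1) * (s + 1) := Nat.lt_succ_sqrt (2 * n)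
    have h2 : (s + 1) * (s + 1) ≤ 2 ^ L * 2 ^ L := Nat.mul_le_mul hsL hsL
    rw [show (4 : ℕ) = 2 * 2 from rfl, mul_pow]
    omega
  have hexp : 3 * (L * (s + 2)) ≤ n := by
    have h7 := seven_mul_log_le hs64
    have hsq : s * s ≤ 2 * n := Nat.sqrt_le (2 * n)
    rw [← hL] at h7
    have h3 : 7 * L * (6 * (s + 2)) ≤ s * (6 * (s + 2)) := Nat.mul_le_mul_right _ h7
    have h4 : s * (6 * (s + 2)) ≤ s * (7 * s) := Nat.mul_le_mul_left _ (by omega)
    nlinarith
  calc n * (2 * n) ^ (s + 1) * 4 ^ (2 * n / 3)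
      ≤ (2 * n) * (2 * n) ^ (s + 1) * 4 ^ (2 * n / 3) := by gcongr; omega
    _ = (2 * n) ^ (s + 2) * 4 ^ (2 * n / 3) := by ring
    _ ≤ (4 ^ L) ^ (s + 2) * 4 ^ (2 * n / 3) := by gcongr
    _ = 4 ^ (L * (s + 2) + 2 * n / 3) := by rw [← pow_mul, pow_add]
    _ ≤ 4 ^ n := Nat.pow_le_pow_right (by norm_num) (by omega)

theorem centralBinom_le_of_unique_prime {n p0 : ℕ} (hn : 4 < n)
    (huniq : ∀ p : ℕ, p.Prime → n < p → p ≤ 2 * n → p = p0) :
    centralBinom n ≤ (2 * n) ^ (Nat.sqrt (2 * n) + 1) * 4 ^ (2 * n / 3) := by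
  have n2 : 1 ≤ 2 * n := by omega
  let f : ℕ → ℕ := fun x => x ^ (centralBinom n).factorization x
  have hf : ∀ p, f p ≤ 2 * n := fun p => pow_factorization_choose_le (by omega)
  let T : Finset ℕ := insert p0 (Finset.Icc 1 (Nat.sqrt (2 * n)) ∪
    {p ∈ Finset.range (2 * n / 3 + 1) | p.Prime ∧ Nat.sqrt (2 * n) < p})
  let S : Finset ℕ := {p ∈ Finset.range (2 * n + 1) | p.Prime}
  have hS : ∏ p ∈ S, f p = centralBinom n := by
    rw [← prod_pow_factorization_centralBinom n]
    refine Finset.prod_filter_of_ne fun p _ h => ?_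
    contrapose h
    show p ^ (centralBinom n).factorization p = 1
    rw [factorization_eq_zero_of_not_prime _ h, _root_.pow_zero]
  have hzero : ∀ p ∈ S, p ∉ T → f p = 1 := by
    intro p hp hpT
    obtain ⟨hp1, hp2⟩ := Finset.mem_filter.1 hp
    rw [Finset.mem_range] at hp1
    simp only [T, Finset.mem_insert, Finset.mem_union, Finset.mem_Icc, Finset.mem_filter,
      Finset.mem_range, not_or, not_and] at hpT
    obtain ⟨h0, h1, h2⟩ := hpT
    have hp1' := hp2.one_le
    have hps : Nat.sqrt (2 * n) < p := by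
      by_contra hc
      exact h1 hp1' (by omega)
    have hlarge : 2 * n < 3 * p := by
      by_contra hc
      exact h2 (by omega) hp2 hps
    have hpn : p ≤ n := by
      by_contra hc
      exact h0 (huniq p hp2 (by omega) (by omega))
    show p ^ (centralBinom n).factorization p = 1
    rw [factorization_centralBinom_of_two_mul_self_lt_three_mul (by omega) hpn hlarge,
      _root_.pow_zero]
  have hle : centralBinom n ≤ ∏ p ∈ T, f p := by
    rw [← hS]
    have hsub : ∏ p ∈ S, f p = ∏ p ∈ S ∩ T, f p :=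
      (Finset.prod_subset Finset.inter_subset_left fun p hp hpT =>
        hzero p hp fun h => hpT (Finset.mem_inter.2 ⟨hp, h⟩)).symm
    rw [hsub]
    refine Finset.prod_le_prod_of_subset_of_one_le' Finset.inter_subset_right fun p _ _ => ?_
    show 1 ≤ p ^ (centralBinom n).factorization p
    rcases Nat.eq_zero_or_pos p with rfl | hp
    · simp
    · exact Nat.one_le_pow _ _ hp
  refine hle.trans ?_
  set s := Nat.sqrt (2 * n)
  set U := {p ∈ Finset.range (2 * n / 3 + 1) | p.Prime ∧ s < p}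
  have hone : ∀ p, 1 ≤ f p := fun p => by
    show 1 ≤ p ^ (centralBinom n).factorization p
    rcases Nat.eq_zero_or_pos p with rfl | hp
    · simp
    · exact Nat.one_le_pow _ _ hp
  have hdisj : Disjoint (Finset.Icc 1 s) U := Finset.disjoint_left.2 fun x hx hx' => by
    have := (Finset.mem_Icc.1 hx).2
    have := ((Finset.mem_filter.1 hx').2).2
    omega
  have h1 : ∏ p ∈ Finset.Icc 1 s, f p ≤ (2 * n) ^ s := by
    refine (Finset.prod_le_prod' fun p _ => hf p).trans ?_
    rw [Finset.prod_const, card_Icc, Nat.add_sub_cancel]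
  have h2 : ∏ p ∈ U, f p ≤ 4 ^ (2 * n / 3) := by
    refine le_trans ?_ (primorial_le_four_pow (2 * n / 3))
    refine (Finset.prod_le_prod' fun p hp => (?_ : f p ≤ p)).trans ?_
    · obtain ⟨-, hpp, hps⟩ := Finset.mem_filter.1 hp
      refine (pow_right_mono₀ hpp.one_lt.le ?_).trans (pow_one p).le
      exact Nat.factorization_choose_le_one (sqrt_lt'.mp hps)
    refine Finset.prod_le_prod_of_subset_of_one_le'
      (fun p hp => Finset.mem_filter.2 ⟨(Finset.mem_filter.1 hp).1, (Finset.mem_filter.1 hp).2.1⟩) ?_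
    exact fun p hp _ => (Finset.mem_filter.1 hp).2.one_lt.le
  by_cases hp0 : p0 ∈ Finset.Icc 1 s ∪ U
  · show ∏ p ∈ insert p0 (Finset.Icc 1 s ∪ U), f p ≤ _
    rw [Finset.insert_eq_of_mem hp0, Finset.prod_union hdisj]
    exact Nat.mul_le_mul (h1.trans (Nat.pow_le_pow_right n2 (by omega))) h2
  · show ∏ p ∈ insert p0 (Finset.Icc 1 s ∪ U), f p ≤ _
    rw [Finset.prod_insert hp0, Finset.prod_union hdisj, ← mul_assoc]
    refine Nat.mul_le_mul ?_ h2
    rw [pow_succ, mul_comm (f p0)]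
    exact Nat.mul_le_mul h1 (hf p0)

theorem two_primes_eventually {n : ℕ} (hn : 2048 ≤ n) :
    ∃ p q : ℕ, p.Prime ∧ q.Prime ∧ p ≠ q ∧ n < p ∧ p ≤ 2 * n ∧ n < q ∧ q ≤ 2 * n := by
  obtain ⟨p0, hp0, h1, h2⟩ := Nat.exists_prime_lt_and_le_two_mul n (by omega)
  by_contra hno
  have huniq : ∀ p : ℕ, p.Prime → n < p → p ≤ 2 * n → p = p0 := by
    intro p hp h3 h4
    by_contra hne
    exact hno ⟨p, p0, hp, hp0, hne, h3, h4, h1, h2⟩
  have h3 : n * centralBinom n ≤ n * ((2 * n) ^ (Nat.sqrt (2 * n) + 1) * 4 ^ (2 * n / 3)) :=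
    Nat.mul_le_mul_left n (centralBinom_le_of_unique_prime (by omega) huniq)
  have h4 := Nat.four_pow_lt_mul_centralBinom n (by omega)
  have h5 := two_bertrand_inequality hn
  rw [← mul_assoc] at h3
  omega

/-- Every `n ≥ 6` has two primes above it and at most twice as large. -/
theorem two_primes_bertrand {n : ℕ} (hn : 6 ≤ n) :
    ∃ p q : ℕ, p.Prime ∧ q.Prime ∧ p ≠ q ∧ n < p ∧ p ≤ 2 * n ∧ n < q ∧ q ≤ 2 * n := by
  rcases le_or_gt 2048 n with h | h
  · exact two_primes_eventually h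
  have key : ∀ p q : ℕ, p.Prime → q.Prime → p < q → n < p → q ≤ 2 * n →
      ∃ p q : ℕ, p.Prime ∧ q.Prime ∧ p ≠ q ∧ n < p ∧ p ≤ 2 * n ∧ n < q ∧ q ≤ 2 * n :=
    fun p q hp hq hpq h1 h2 =>
      ⟨p, q, hp, hq, hpq.ne, h1, by omega, by omega, h2⟩
  rcases lt_or_ge n 7 with h' | h'
  · exact key 7 11 (by norm_num) (by norm_num) (by norm_num) (by omega) (by omega)
  rcases lt_or_ge n 11 with h1 | h1
  · exact key 11 13 (by norm_num) (by norm_num) (by norm_num) (by omega) (by omega)
  rcases lt_or_ge n 17 with h2 | h2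
  · exact key 17 19 (by norm_num) (by norm_num) (by norm_num) (by omega) (by omega)
  rcases lt_or_ge n 29 with h3 | h3
  · exact key 29 31 (by norm_num) (by norm_num) (by norm_num) (by omega) (by omega)
  rcases lt_or_ge n 47 with h4 | h4
  · exact key 47 53 (by norm_num) (by norm_num) (by norm_num) (by omega) (by omega)
  rcases lt_or_ge n 83 with h5 | h5
  · exact key 83 89 (by norm_num) (by norm_num) (by norm_num) (by omega) (by omega)
  rcases lt_or_ge n 157 with h6 | h6
  · exact key 157 163 (by norm_num) (by norm_num) (by norm_num) (by omega) (by omega)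
  rcases lt_or_ge n 311 with h7 | h7
  · exact key 311 313 (by norm_num) (by norm_num) (by norm_num) (by omega) (by omega)
  rcases lt_or_ge n 617 with h8 | h8
  · exact key 617 619 (by norm_num) (by norm_num) (by norm_num) (by omega) (by omega)
  rcases lt_or_ge n 1229 with h9 | h9
  · exact key 1229 1231 (by norm_num) (by norm_num) (by norm_num) (by omega) (by omega)
  exact key 2381 2383 (by norm_num) (by norm_num) (by norm_num) (by omega) (by omega)

/-- For `n ≥ 11` there are two primes in `(n/2, n]`. -/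
theorem two_primes_half {n : ℕ} (hn : 11 ≤ n) :
    ∃ p q : ℕ, p.Prime ∧ q.Prime ∧ p ≠ q ∧ n < 2 * p ∧ p ≤ n ∧ n < 2 * q ∧ q ≤ n := by
  rcases lt_or_ge n 12 with h | h
  · exact ⟨7, 11, by norm_num, by norm_num, by norm_num, by omega, by omega, by omega, by omega⟩
  obtain ⟨p, q, hp, hq, hne, h1, h2, h3, h4⟩ := two_primes_bertrand (n := n / 2) (by omega)
  exact ⟨p, q, hp, hq, hne, by omega, by omega, by omega, by omega⟩

end Cfsg.Agent.RecogA
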