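import Mathlib
import Cfsg.Agent.RecogA.TwoPrimes
import Cfsg.Agent.RecogA.Socle
import Cfsg.Agent.Lib.Hall

/-!
Finite groups with the order and the element orders of an alternating group.
-/

namespace Cfsg.Agent.RecogA

set_option linter.style.haveILetI false

open Equiv

theorem no_perm_orderOf_mul {n p q : ℕ} (hp : p.Prime) (hq : q.Prime) (hne : p ≠ q)
    (hpq : n < p + q) (g : Perm (Fin n)) : orderOf g ≠ p * q := by
  intro h
  have hdiv : ∀ r : ℕ, r.Prime → r ∣ orderOf g → ∃ c ∈ g.cycleType, r ∣ c := by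
    intro r hr hrg
    rw [← Perm.lcm_cycleType] at hrg
    by_contra hno
    push Not at hno
    have key : ∀ m : Multiset ℕ, (∀ c ∈ m, ¬ r ∣ c) → ¬ r ∣ m.lcm := by
      intro m
      induction m using Multiset.induction with
      | empty => intro _; simpa using hr.ne_one
      | cons a m ih =>
        intro hm hd
        rw [Multiset.lcm_cons] at hd
        rcases hr.dvd_mul.1 (hd.trans (lcm_dvd_mul a m.lcm)) with h | h
        · exact hm a (Multiset.mem_cons_self a m) h
        · exact ih (fun c hc => hm c (Multiset.mem_cons_of_mem hc)) h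
    exact key _ hno hrg
  obtain ⟨a, ha, hpa⟩ := hdiv p hp (h ▸ dvd_mul_right p q)
  obtain ⟨b, hb, hqb⟩ := hdiv q hq (h ▸ dvd_mul_left q p)
  have hsum : g.cycleType.sum ≤ n := by
    rw [Perm.sum_cycleType]
    exact (Finset.card_le_univ _).trans (by simp)
  have ha0 : 0 < a := lt_of_lt_of_le (by norm_num) (Perm.two_le_of_mem_cycleType ha)
  have hb0 : 0 < b := lt_of_lt_of_le (by norm_num) (Perm.two_le_of_mem_cycleType hb)
  by_cases hab : a = b
  · have hd : p * q ∣ a := ((Nat.coprime_primes hp hq).2 hne).mul_dvd_of_dvd_of_dvd hpa (hab ▸ hqb)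
    have h1 := Nat.le_of_dvd ha0 hd
    have h2 : a ≤ n := (Multiset.le_sum_of_mem ha).trans hsum
    have h3 := hp.two_le
    have h4 := hq.two_le
    nlinarith
  · have h1 : a + b ≤ g.cycleType.sum := by
      obtain ⟨m, hm⟩ := Multiset.exists_cons_of_mem ha
      rw [hm, Multiset.sum_cons]
      refine Nat.add_le_add_left ?_ a
      have hbm : b ∈ m := by
        rw [hm, Multiset.mem_cons] at hb
        exact hb.resolve_left fun e => hab e.symm
      exact Multiset.le_sum_of_mem hbm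
    have := Nat.le_of_dvd ha0 hpa
    have := Nat.le_of_dvd hb0 hqb
    omega

variable {G : Type*} [Group G] [Finite G]

/-- If `K` is normal with order divisible by `p`, which divides `|G|` only once, and `G` has no
element of order `p q`, then `q` divides `|K|`, unless `q` divides `p - 1`. -/
theorem dvd_card_normal_of_no_mul {p q : ℕ} [Fact p.Prime] [Fact q.Prime] (hpq : p ≠ q)
    (hqp : ¬ q ∣ p - 1) (hp2 : ¬ p ^ 2 ∣ Nat.card G) (hqG : q ∣ Nat.card G)
    (hno : ∀ g : G, orderOf g ≠ p * q) (K : Subgroup G) [K.Normal] (hpK : p ∣ Nat.card K) :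
    q ∣ Nat.card K := by
  classical
  by_contra hqK
  obtain ⟨P⟩ := Sylow.nonempty (p := p) (G := K)
  set P' : Subgroup G := (P : Subgroup K).map K.subtype with hP'
  have hPcard : Nat.card P' = p := by
    rw [hP', ← Nat.card_congr (Subgroup.equivMapOfInjective _ _ K.subtype_injective).toEquiv]
    obtain ⟨a, ha⟩ := IsPGroup.iff_card.1 P.isPGroup'
    have h1 := P.dvd_card_of_dvd_card hpK
    rw [ha] at h1 ⊢
    have hle : a ≤ 1 := by
      by_contra hc
      refine hp2 (((Nat.pow_dvd_pow p (show 2 ≤ a by omega)).trans ?_))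
      rw [← ha]
      exact (Subgroup.card_subgroup_dvd_card _).trans (Subgroup.card_subgroup_dvd_card K)
    rcases (by omega : a = 0 ∨ a = 1) with rfl | rfl
    · rw [pow_zero] at h1
      exact absurd h1 (Fact.out : p.Prime).not_dvd_one
    · rw [pow_one]
  have hfr : Subgroup.normalizer (P' : Set G) ⊔ K = ⊤ := Sylow.normalizer_sup_eq_top P
  have hqN : q ∣ Nat.card (Subgroup.normalizer (P' : Set G)) := by
    by_contra hc
    have h1 : Nat.card G ∣ Nat.card (Subgroup.normalizer (P' : Set G)) * Nat.card K := by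
      rw [← Subgroup.card_top, ← hfr]
      have h2 := Subgroup.card_mul_index
        (K.subgroupOf (Subgroup.normalizer (P' : Set G) ⊔ K))
      rw [Nat.card_congr (Subgroup.subgroupOfEquivOfLe le_sup_right).toEquiv] at h2
      rw [← h2, mul_comm (Nat.card (Subgroup.normalizer (P' : Set G)))]
      refine Nat.mul_dvd_mul_left _ ?_
      show K.relIndex _ ∣ _
      rw [Subgroup.relIndex_sup_right]
      exact Subgroup.relIndex_dvd_card _ _
    rcases (Fact.out : q.Prime).dvd_mul.1 (hqG.trans h1) with h | h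
    · exact hc h
    · exact hqK h
  obtain ⟨y, hy⟩ := exists_prime_orderOf_dvd_card' (G := Subgroup.normalizer (P' : Set G)) q hqN
  obtain ⟨x, hx⟩ := exists_prime_orderOf_dvd_card' (G := P') p (by rw [hPcard])
  haveI : IsCyclic P' := isCyclic_of_prime_card hPcard
  have hxy : Commute (x : G) (y : G) := by
    have hcent : (y : G) * x * (y : G)⁻¹ = x := by
      have hmem : (y : G) * x * (y : G)⁻¹ ∈ P' :=
        (Subgroup.mem_normalizer_iff.1 y.2 x).1 x.2
      obtain ⟨k, hk⟩ : ∃ k : ℤ, (x : G) ^ k = (y : G) * x * (y : G)⁻¹ := by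
        have hgen : Subgroup.zpowers x = ⊤ := Subgroup.eq_top_of_card_eq _ (by
          rw [Nat.card_zpowers, hx, hPcard])
        obtain ⟨k, hk⟩ := Subgroup.mem_zpowers_iff.1
          (show (⟨_, hmem⟩ : P') ∈ Subgroup.zpowers x by rw [hgen]; exact Subgroup.mem_top _)
        exact ⟨k, by simpa using congrArg Subtype.val hk⟩
      have hxG : orderOf (x : G) = p := by rw [Subgroup.orderOf_coe, hx]
      have hiter : ∀ i : ℕ, (y : G) ^ i * x * ((y : G) ^ i)⁻¹ = (x : G) ^ (k ^ i) := by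
        intro i
        induction i with
        | zero => simp
        | succ i ih =>
          calc (y : G) ^ (i + 1) * x * ((y : G) ^ (i + 1))⁻¹
              = (y : G) * ((y : G) ^ i * x * ((y : G) ^ i)⁻¹) * (y : G)⁻¹ := by
                rw [pow_succ' (y : G)]; group
            _ = (y : G) * (x : G) ^ (k ^ i) * (y : G)⁻¹ := by rw [ih]
            _ = ((y : G) * x * (y : G)⁻¹) ^ (k ^ i) := by rw [conj_zpow]
            _ = (x : G) ^ (k ^ (i + 1)) := by rw [← hk, ← zpow_mul, ← pow_succ']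
      have hyq : (y : G) ^ q = 1 := by
        rw [← hy, ← Subgroup.orderOf_coe, pow_orderOf_eq_one]
      have hk1 : ((k : ZMod p)) ^ q = 1 := by
        have h := hiter q
        rw [hyq, one_mul, inv_one, mul_one] at h
        have h2 : (x : G) ^ (1 : ℤ) = (x : G) ^ (k ^ q) := by rw [zpow_one]; exact h
        rw [zpow_eq_zpow_iff_modEq, hxG, ← ZMod.intCast_eq_intCast_iff] at h2
        push_cast at h2
        exact h2.symm
      have hkne : (k : ZMod p) ≠ 0 := fun h => by
        rw [h, zero_pow (Fact.out : q.Prime).ne_zero] at hk1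
        exact zero_ne_one hk1
      have hk2 : (k : ZMod p) = 1 := by
        have hd : orderOf (k : ZMod p) ∣ Nat.gcd q (p - 1) :=
          Nat.dvd_gcd (orderOf_dvd_of_pow_eq_one hk1)
            (orderOf_dvd_of_pow_eq_one (ZMod.pow_card_sub_one_eq_one hkne))
        rw [((Fact.out : q.Prime).coprime_iff_not_dvd.2 hqp).gcd_eq_one, Nat.dvd_one] at hd
        exact orderOf_eq_one_iff.1 hd
      rw [← hk]
      conv_rhs => rw [← zpow_one (x : G)]
      rw [zpow_eq_zpow_iff_modEq, hxG, ← ZMod.intCast_eq_intCast_iff]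
      push_cast
      exact hk2
    show (x : G) * y = y * x
    calc (x : G) * y = (y : G) * x * (y : G)⁻¹ * y := by rw [hcent]
      _ = y * x := by group
  refine hno ((x : G) * y) ?_
  rw [hxy.orderOf_mul_eq_mul_orderOf_of_coprime, Subgroup.orderOf_coe, Subgroup.orderOf_coe, hx, hy]
  rw [Subgroup.orderOf_coe, Subgroup.orderOf_coe, hx, hy]
  exact (Nat.coprime_primes Fact.out Fact.out).2 hpq

omit [Finite G] in
theorem card_sup_dvd (A B : Subgroup G) (h : A ≤ Subgroup.normalizer (B : Set G)) :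
    Nat.card (A ⊔ B : Subgroup G) ∣ Nat.card A * Nat.card B := by
  haveI : (B.subgroupOf (A ⊔ B)).Normal :=
    Subgroup.normal_subgroupOf_of_le_normalizer (sup_le h Subgroup.le_normalizer)
  have h2 := Subgroup.card_mul_index (B.subgroupOf (A ⊔ B))
  rw [Nat.card_congr (Subgroup.subgroupOfEquivOfLe le_sup_right).toEquiv] at h2
  rw [← h2, mul_comm (Nat.card A)]
  refine Nat.mul_dvd_mul_left _ ?_
  have h3 : B.relIndex (A ⊔ B) = (B.subgroupOf (A ⊔ B)).relIndex (A.subgroupOf (A ⊔ B)) := by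
    have hsup : A.subgroupOf (A ⊔ B) ⊔ B.subgroupOf (A ⊔ B) = ⊤ := by
      rw [← Subgroup.subgroupOf_sup le_sup_left le_sup_right, Subgroup.subgroupOf_self]
    rw [← Subgroup.relIndex_sup_right (H := A.subgroupOf (A ⊔ B)) (K := B.subgroupOf (A ⊔ B)), hsup,
      Subgroup.relIndex_top_right]
    rfl
  show B.relIndex (A ⊔ B) ∣ _
  rw [h3]
  exact (Subgroup.relIndex_dvd_card _ _).trans
    (dvd_of_eq (Nat.card_congr (Subgroup.subgroupOfEquivOfLe le_sup_left).toEquiv))

/-- A minimal normal subgroup whose order is divisible exactly once by `p` and by another prime is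
simple and non-abelian. -/
theorem simple_of_prime_once (M : Subgroup G) [hMn : M.Normal] (hMne : M ≠ ⊥)
    (hmin : ∀ L : Subgroup G, L.Normal → L ≤ M → L ≠ ⊥ → L = M) {p q : ℕ} (hp : p.Prime)
    (hq : q.Prime) (hne : p ≠ q) (hpM : p ∣ Nat.card M) (hp2 : ¬ p ^ 2 ∣ Nat.card M)
    (hqM : q ∣ Nat.card M) : IsSimpleGroup M ∧ ¬ IsMulCommutative M := by
  classical
  haveI : Fact p.Prime := ⟨hp⟩
  haveI : Fact q.Prime := ⟨hq⟩
  have hna : ¬ IsMulCommutative M := by
    intro hab
    let P : Subgroup G :=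
      { carrier := {x | x ∈ M ∧ x ^ p = 1}
        one_mem' := ⟨one_mem _, one_pow _⟩
        mul_mem' := fun {a b} ha hb => ⟨mul_mem ha.1 hb.1, by
          rw [(show Commute a b from congrArg Subtype.val
            (hab.is_comm.comm (⟨a, ha.1⟩ : M) ⟨b, hb.1⟩)).mul_pow, ha.2, hb.2, one_mul]⟩
        inv_mem' := fun {a} ha => ⟨inv_mem ha.1, by rw [inv_pow, ha.2, inv_one]⟩ }
    have hPn : P.Normal := ⟨fun x hx g => ⟨hMn.conj_mem x hx.1 g, by
      rw [conj_pow, hx.2]; group⟩⟩
    obtain ⟨x, hx⟩ := exists_prime_orderOf_dvd_card' (G := M) p hpM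
    obtain ⟨y, hy⟩ := exists_prime_orderOf_dvd_card' (G := M) q hqM
    have hxP : (x : G) ∈ P := ⟨x.2, by
      rw [← hx, ← Subgroup.orderOf_coe]; exact pow_orderOf_eq_one _⟩
    have hPne : P ≠ ⊥ := by
      intro h
      rw [h, Subgroup.mem_bot] at hxP
      rw [show x = 1 from Subtype.ext hxP, orderOf_one] at hx
      exact hp.ne_one hx.symm
    have hyP : (y : G) ∈ P := by
      rw [hmin P hPn (fun z hz => hz.1) hPne]
      exact y.2
    have h1 := orderOf_dvd_of_pow_eq_one hyP.2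
    rw [Subgroup.orderOf_coe, hy] at h1
    exact hne ((Nat.prime_dvd_prime_iff_eq hq hp).1 h1).symm
  obtain ⟨T, hTM, hMT, hTs, hTna, hdisj, hsup⟩ := exists_simple_factor M hMne hmin hna
  haveI := hTs
  suffices hTeq : ∀ g, cjg g T = T by
    have hTM' : T = M := by rw [← hsup]; simp [hTeq]
    subst hTM'
    exact ⟨hTs, hTna⟩
  intro g
  by_contra hg
  have hcardc : ∀ h : G, Nat.card (cjg h T) = Nat.card T := fun h =>
    (Nat.card_congr (Subgroup.equivMapOfInjective T _ (MulEquiv.injective _)).toEquiv).symm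
  have hpT : p ∣ Nat.card T := by
    by_contra hpT
    have key : ∀ s : Finset G, M ≤ Subgroup.normalizer ((s.sup fun h => cjg h T : Subgroup G) : Set G) ∧
        (s.sup fun h => cjg h T) ≤ M ∧ ¬ p ∣ Nat.card (s.sup fun h => cjg h T : Subgroup G) := by
      intro s
      induction s using Finset.induction with
      | empty =>
        rw [Finset.sup_empty]
        refine ⟨?_, bot_le, by rw [Subgroup.card_bot]; exact hp.not_dvd_one⟩
        intro x _
        rw [Subgroup.mem_normalizer_iff]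
        intro y
        simp only [Subgroup.mem_bot]
        exact conj_eq_one_iff.symm
      | insert a s ha ih =>
        rw [Finset.sup_insert]
        obtain ⟨ih1, ih2, ih3⟩ := ih
        have hle : cjg a T ≤ M := by rw [← hsup]; exact le_iSup (fun h => cjg h T) a
        have hn : M ≤ Subgroup.normalizer (cjg a T : Set G) := by
          intro x hx
          have hx' : a⁻¹ * x * a ∈ Subgroup.normalizer (T : Set G) :=
            hMT (by simpa using hMn.conj_mem x hx a⁻¹)
          rw [Subgroup.mem_normalizer_iff]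
          intro y
          rw [mem_cjg, mem_cjg, Subgroup.mem_normalizer_iff.1 hx' (a⁻¹ * y * a)]
          constructor <;> intro h <;> simpa [mul_assoc] using h
        refine ⟨(le_inf hn ih1).trans (Subgroup.normalizer_inf_normalizer_le_normalizer_sup _ _),
          sup_le hle ih2, fun hd => ?_⟩
        have := hd.trans (card_sup_dvd _ _ (hle.trans ih1))
        rcases hp.dvd_mul.1 this with h | h
        · rw [hcardc] at h; exact hpT h
        · exact ih3 h
    haveI : Fintype G := Fintype.ofFinite G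
    have h := (key Finset.univ).2.2
    rw [Finset.sup_univ_eq_iSup, hsup] at h
    exact h hpM
  apply hp2
  have hn : cjg g T ≤ Subgroup.normalizer (T : Set G) :=
    le_trans (by rw [← hsup]; exact le_iSup (fun h => cjg h T) g) hMT
  obtain ⟨x, hx⟩ := exists_prime_orderOf_dvd_card' (G := T) p hpT
  obtain ⟨y, hy⟩ := exists_prime_orderOf_dvd_card' (G := cjg g T) p (hcardc g ▸ hpT)
  let f : T × cjg g T →* M := MonoidHom.mk' (fun z => ⟨(z.1 : G) * z.2, mul_mem (hTM z.1.2)
      ((show cjg g T ≤ M by rw [← hsup]; exact le_iSup (fun h => cjg h T) g) z.2.2)⟩)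
    fun a b => Subtype.ext (by
      have hc := (hdisj g hg).2 _ b.1.2 _ a.2.2
      show ((a.1 : G) * b.1) * ((a.2 : G) * b.2) = (a.1 : G) * a.2 * ((b.1 : G) * b.2)
      rw [mul_assoc, ← mul_assoc (b.1 : G), hc.eq]
      group)
  have hf : Function.Injective f := by
    rw [injective_iff_map_eq_one]
    rintro ⟨a, b⟩ h
    have h1 : (a : G) * b = 1 := congrArg Subtype.val h
    have ha : (a : G) ∈ T ⊓ cjg g T := ⟨a.2, by
      show (a : G) ∈ cjg g T
      rw [eq_inv_of_mul_eq_one_left h1]; exact inv_mem b.2⟩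
    rw [(hdisj g hg).1, Subgroup.mem_bot] at ha
    have hb : (b : G) = 1 := by rwa [ha, one_mul] at h1
    exact Prod.ext (Subtype.ext ha) (Subtype.ext hb)
  have hd := Subgroup.card_dvd_of_injective f hf
  rw [Nat.card_prod, hcardc] at hd
  rw [pow_two]
  exact (Nat.mul_dvd_mul hpT hpT).trans hd

theorem simple_section {π : Finset ℕ} (hπ : ∀ p ∈ π, p.Prime) {p0 q0 : ℕ} (hp0 : p0 ∈ π)
    (hq0 : q0 ∈ π) (hne : p0 ≠ q0) (hdvd : ∀ p ∈ π, p ∣ Nat.card G)
    (honce : ∀ p ∈ π, ¬ p ^ 2 ∣ Nat.card G)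
    (hno : ∀ p ∈ π, ∀ q ∈ π, p ≠ q → ∀ g : G, orderOf g ≠ p * q)
    (hsub : ∀ p ∈ π, ∀ q ∈ π, p ≠ q → ¬ q ∣ p - 1) :
    ∃ (N H : Subgroup G) (_ : N.Normal), H.Normal ∧ N < H ∧
      IsSimpleGroup (↥H ⧸ N.subgroupOf H) ∧ ¬ IsMulCommutative (↥H ⧸ N.subgroupOf H) ∧
      ∀ p ∈ π, p ∣ Nat.card (↥H ⧸ N.subgroupOf H) := by
  classical
  have hall : ∀ K : Subgroup G, K.Normal → ∀ p ∈ π, p ∣ Nat.card K → ∀ q ∈ π, q ∣ Nat.card K := by
    intro K hK p hp hpK q hq
    rcases eq_or_ne p q with rfl | hpq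
    · exact hpK
    haveI := hK
    haveI : Fact p.Prime := ⟨hπ p hp⟩
    haveI : Fact q.Prime := ⟨hπ q hq⟩
    exact dvd_card_normal_of_no_mul hpq (hsub p hp q hq hpq) (honce p hp) (hdvd q hq)
      (hno p hp q hq hpq) K hpK
  obtain ⟨H, ⟨hHn, hHp⟩, hHmin⟩ := WellFounded.has_min (wellFounded_lt (α := Subgroup G))
    {H : Subgroup G | H.Normal ∧ p0 ∣ Nat.card H}
    ⟨⊤, inferInstance, by rw [Subgroup.card_top]; exact hdvd p0 hp0⟩
  haveI := hHn
  have hHne : H ≠ ⊥ := fun h => (hπ p0 hp0).not_dvd_one (by rwa [h, Subgroup.card_bot] at hHp)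
  obtain ⟨N, ⟨hNn, hNlt⟩, hNmax⟩ := WellFounded.has_min (wellFounded_gt (α := Subgroup G))
    {N : Subgroup G | N.Normal ∧ N < H} ⟨⊥, inferInstance, bot_lt_iff_ne_bot.2 hHne⟩
  haveI := hNn
  have hNp : ∀ p ∈ π, ¬ p ∣ Nat.card N := fun p hp hpN =>
    hHmin N ⟨hNn, hall N hNn p hp hpN p0 hp0⟩ hNlt
  let φ : H →* G ⧸ N := (QuotientGroup.mk' N).comp H.subtype
  set M := H.map (QuotientGroup.mk' N) with hM
  haveI : M.Normal := hHn.map _ (QuotientGroup.mk'_surjective N)
  have hcard : Nat.card H = Nat.card N * Nat.card M := by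
    have hk : φ.ker = N.subgroupOf H := by
      ext x
      simp [φ, Subgroup.mem_subgroupOf]
    have hr : φ.range = M := by
      rw [hM, MonoidHom.range_comp, Subgroup.range_subtype]
    rw [← φ.ker.card_mul_index, Subgroup.index_ker, hr, hk,
      Nat.card_congr (Subgroup.subgroupOfEquivOfLe hNlt.le).toEquiv]
  have hpM : ∀ p ∈ π, p ∣ Nat.card M := by
    intro p hp
    have h := hall H hHn p0 hp0 hHp p hp
    rw [hcard] at h
    exact ((hπ p hp).dvd_mul.1 h).resolve_left (hNp p hp)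
  have hMne : M ≠ ⊥ := fun h => (hπ p0 hp0).not_dvd_one (by
    have := hpM p0 hp0
    rwa [h, Subgroup.card_bot] at this)
  have hMmin : ∀ L : Subgroup (G ⧸ N), L.Normal → L ≤ M → L ≠ ⊥ → L = M := by
    intro L hL hle hne'
    set L' := L.comap (QuotientGroup.mk' N) with hL'
    have hL'n : L'.Normal := hL.comap _
    have hNL : N ≤ L' := fun x hx => by
      show QuotientGroup.mk' N x ∈ L
      rw [show QuotientGroup.mk' N x = 1 from (QuotientGroup.eq_one_iff x).2 hx]
      exact one_mem L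
    have hL'H : L' ≤ H := by
      intro x hx
      obtain ⟨h, hh, he⟩ := hle hx
      have hd : h⁻¹ * x ∈ N := QuotientGroup.eq.1 he
      simpa using mul_mem hh (hNlt.le hd)
    have hback : L = L'.map (QuotientGroup.mk' N) :=
      (Subgroup.map_comap_eq_self_of_surjective (QuotientGroup.mk'_surjective N) L).symm
    rcases eq_or_ne L' H with h | h
    · rw [hback, h]
    · exfalso
      have hNeq : L' = N := by
        by_contra hne2
        exact hNmax L' ⟨hL'n, hL'H.lt_of_ne h⟩ (lt_of_le_of_ne hNL (Ne.symm hne2))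
      apply hne'
      rw [hback, hNeq, QuotientGroup.map_mk'_self]
  have hp2M : ¬ p0 ^ 2 ∣ Nat.card M := fun h =>
    honce p0 hp0 ((h.trans (Dvd.intro_left _ hcard.symm)).trans (Subgroup.card_subgroup_dvd_card H))
  obtain ⟨hsimple, hnab⟩ := simple_of_prime_once M hMne hMmin (hπ p0 hp0) (hπ q0 hq0) hne
    (hpM p0 hp0) hp2M (hpM q0 hq0)
  have hker : φ.ker = N.subgroupOf H := by
    ext x
    simp [φ, Subgroup.mem_subgroupOf]
  have hrange : φ.range = M := by
    rw [hM, MonoidHom.range_comp, Subgroup.range_subtype]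
  let e : (↥H ⧸ N.subgroupOf H) ≃* M :=
    (QuotientGroup.quotientMulEquivOfEq hker.symm).trans
      ((QuotientGroup.quotientKerEquivRange φ).trans (MulEquiv.subgroupCongr hrange))
  refine ⟨N, H, hNn, hHn, hNlt, e.isSimpleGroup_congr.2 hsimple, fun h => hnab ⟨⟨fun a b => ?_⟩⟩,
    fun p hp => by rw [Nat.card_congr e.toEquiv]; exact hpM p hp⟩
  apply e.symm.injective
  rw [map_mul, map_mul, h.is_comm.comm]

theorem exists_orderOf_mul_of_solvable [Group.IsSolvable G] {p q : ℕ} [Fact p.Prime] [Fact q.Prime]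
    (hpq : p ≠ q) (hqp : ¬ q ∣ p - 1) (hpG : p ∣ Nat.card G) (hp2 : ¬ p ^ 2 ∣ Nat.card G)
    (hqG : q ∣ Nat.card G)
    (hmod : ∀ i, q ^ i ∣ Nat.card G → q ^ i ≡ 1 [MOD p] → i = 0) :
    ∃ g : G, orderOf g = p * q := by
  classical
  by_contra hno
  push Not at hno
  obtain ⟨L, hL1, hL2⟩ := Cfsg.Agent.Hall.exists_isPiHall (G := G) {p, q}
  have hidx : ∀ r : ℕ, r.Prime → r ∈ ({p, q} : Set ℕ) → r ∣ Nat.card G → r ∣ Nat.card L := by
    intro r hr hmem hd
    rw [← L.card_mul_index] at hd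
    exact (hr.dvd_mul.1 hd).resolve_right (hL2 r hr hmem)
  have hpL := hidx p Fact.out (by simp) hpG
  have hqL := hidx q Fact.out (by simp) hqG
  obtain ⟨P⟩ := Sylow.nonempty (p := p) (G := L)
  have hn1 : Nat.card (Sylow p L) = 1 := by
    have hd : Nat.card (Sylow p L) ∣ (P : Subgroup L).index := P.card_dvd_index
    have hidxP : ¬ p ∣ (P : Subgroup L).index := P.not_dvd_index
    have hq' : ∀ r : ℕ, r.Prime → r ∣ Nat.card (Sylow p L) → r = q := by
      intro r hr hrd
      rcases hL1 r hr (hrd.trans (hd.trans (Subgroup.index_dvd_card _))) with h | h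
      · exact absurd ((dvd_of_eq h.symm).trans (hrd.trans hd)) hidxP
      · exact h
    obtain ⟨i, hi⟩ : ∃ i, Nat.card (Sylow p L) = q ^ i :=
      ⟨_, Nat.eq_prime_pow_of_unique_prime_dvd Nat.card_pos.ne' (fun {r} hr hrd => hq' r hr hrd)⟩
    have hmod' := card_sylow_modEq_one p L
    rw [hi] at hmod'
    have h0 := hmod i ((hi ▸ hd.trans (Subgroup.index_dvd_card _)).trans
      (Subgroup.card_subgroup_dvd_card L)) hmod'
    rw [hi, h0, pow_zero]
  haveI : Subsingleton (Sylow p L) := (Nat.card_eq_one_iff_unique.1 hn1).1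
  haveI : (P : Subgroup L).Normal := Sylow.normal_of_subsingleton P
  have hp2L : ¬ p ^ 2 ∣ Nat.card L := fun h => hp2 (h.trans (Subgroup.card_subgroup_dvd_card L))
  have hPcard : p ∣ Nat.card (P : Subgroup L) := P.dvd_card_of_dvd_card hpL
  have := dvd_card_normal_of_no_mul hpq hqp hp2L hqL
    (fun g => by rw [← Subgroup.orderOf_coe]; exact hno g) (P : Subgroup L) hPcard
  obtain ⟨a, ha⟩ := IsPGroup.iff_card.1 P.isPGroup'
  rw [ha] at this
  exact hpq ((Nat.prime_dvd_prime_iff_eq Fact.out Fact.out).1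
    ((Fact.out : q.Prime).dvd_of_dvd_pow this)).symm

/-! ### The alternating group -/

variable {n : ℕ}

theorem not_sq_dvd_factorial {p : ℕ} (hp : p.Prime) (h : n < 2 * p) : ¬ p ^ 2 ∣ n.factorial := by
  haveI : Fact p.Prime := ⟨hp⟩
  intro hd
  have h1 := (padicValNat_dvd_iff_le (Nat.factorial_pos n).ne').1 hd
  rcases lt_or_ge n p with h2 | h2
  · rw [padicValNat.eq_zero_of_not_dvd (fun h3 => by
      have := hp.dvd_factorial.1 h3; omega)] at h1
    omega
  · obtain ⟨r, rfl⟩ : ∃ r, n = p * 1 + r := ⟨n - p, by omega⟩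
    rw [padicValNat_factorial_mul_add 1 (by omega), padicValNat_factorial_mul,
      Nat.factorial_one, padicValNat.one] at h1
    omega

theorem card_alt_mul_two (hn : 2 ≤ n) : Nat.card (alternatingGroup (Fin n)) * 2 = n.factorial := by
  haveI : Nontrivial (Fin n) := Fin.nontrivial_iff_two_le.2 hn
  rw [mul_comm, Nat.card_eq_fintype_card, two_mul_card_alternatingGroup, Fintype.card_perm,
    Fintype.card_fin]

theorem dvd_card_alt {p : ℕ} (hp : p.Prime) (hp2 : p ≠ 2) (hn : 2 ≤ n) (hpn : p ≤ n) :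
    p ∣ Nat.card (alternatingGroup (Fin n)) := by
  have h : p ∣ Nat.card (alternatingGroup (Fin n)) * 2 := by
    rw [card_alt_mul_two hn]
    exact hp.dvd_factorial.2 hpn
  exact (hp.dvd_mul.1 h).resolve_right fun h2 => hp2 ((Nat.prime_dvd_prime_iff_eq hp Nat.prime_two).1 h2)

theorem dvd_factorial_of_dvd_card_alt {d : ℕ} (hn : 2 ≤ n)
    (h : d ∣ Nat.card (alternatingGroup (Fin n))) : d ∣ n.factorial := by
  rw [← card_alt_mul_two hn]
  exact h.mul_right 2



theorem no_orderOf_mul_of_spectrum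
    (hspec : Set.range (orderOf : G → ℕ) = Set.range (orderOf : alternatingGroup (Fin n) → ℕ))
    {p q : ℕ} (hp : p.Prime) (hq : q.Prime) (hne : p ≠ q) (hpq : n < p + q) (g : G) :
    orderOf g ≠ p * q := by
  intro h
  obtain ⟨x, hx⟩ : p * q ∈ Set.range (orderOf : alternatingGroup (Fin n) → ℕ) :=
    hspec ▸ ⟨g, h⟩
  exact no_perm_orderOf_mul hp hq hne hpq (x : Perm (Fin n)) (by rw [Subgroup.orderOf_coe, hx])

theorem not_dvd_pred_of_large {p q : ℕ} (hp : p.Prime) (hq : q.Prime) (hne : p ≠ q)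
    (hp3 : 3 ≤ p) (hpn : p ≤ n) (hq3 : 3 ≤ q) (hqn : n < 2 * q) : ¬ q ∣ p - 1 := by
  intro h
  obtain ⟨c, hc⟩ := h
  rcases Nat.lt_or_ge c 2 with hc2 | hc2
  · interval_cases c
    · omega
    · have h1 := Nat.Prime.odd_of_ne_two hp (by omega)
      have h2 := Nat.Prime.odd_of_ne_two hq (by omega)
      obtain ⟨a, ha⟩ := h1
      obtain ⟨b, hb⟩ := h2
      omega
  · have := Nat.mul_le_mul_left q hc2
    omega

theorem simple_section_of_alt (hn : 11 ≤ n)
    (hcard : Nat.card G = Nat.card (alternatingGroup (Fin n)))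
    (hspec : Set.range (orderOf : G → ℕ) = Set.range (orderOf : alternatingGroup (Fin n) → ℕ)) :
    ∃ (N H : Subgroup G) (_ : N.Normal), H.Normal ∧ N < H ∧
      IsSimpleGroup (↥H ⧸ N.subgroupOf H) ∧ ¬ IsMulCommutative (↥H ⧸ N.subgroupOf H) ∧
      ∀ p : ℕ, p.Prime → n < 2 * p → p ≤ n → p ∣ Nat.card (↥H ⧸ N.subgroupOf H) := by
  obtain ⟨p0, q0, hp0, hq0, hne, h1, h2, h3, h4⟩ := two_primes_half hn
  let π : Finset ℕ := (Finset.range (n + 1)).filter fun p => p.Prime ∧ n < 2 * p
  have hmem : ∀ p, p ∈ π ↔ p ≤ n ∧ p.Prime ∧ n < 2 * p := fun p => by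
    simp only [π, Finset.mem_filter, Finset.mem_range, Nat.lt_succ_iff]
  obtain ⟨N, H, hN, hH, hlt, hs, hna, hd⟩ := simple_section (G := G) (π := π)
    (fun p hp => ((hmem p).1 hp).2.1) ((hmem p0).2 ⟨h2, hp0, h1⟩) ((hmem q0).2 ⟨h4, hq0, h3⟩) hne
    (fun p hp => by
      obtain ⟨a, b, c⟩ := (hmem p).1 hp
      rw [hcard]
      exact dvd_card_alt b (by omega) (by omega) a)
    (fun p hp h => by
      obtain ⟨a, b, c⟩ := (hmem p).1 hp
      exact not_sq_dvd_factorial b c (dvd_factorial_of_dvd_card_alt (by omega) (hcard ▸ h)))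
    (fun p hp q hq hpq g => by
      obtain ⟨a, b, c⟩ := (hmem p).1 hp
      obtain ⟨a', b', c'⟩ := (hmem q).1 hq
      exact no_orderOf_mul_of_spectrum hspec b b' hpq (by omega) g)
    (fun p hp q hq hpq => by
      obtain ⟨a, b, c⟩ := (hmem p).1 hp
      obtain ⟨a', b', c'⟩ := (hmem q).1 hq
      exact not_dvd_pred_of_large b b' hpq (by omega) a (by omega) c')
  exact ⟨N, H, hN, hH, hlt, hs, hna, fun p hp h5 h6 => hd p ((hmem p).2 ⟨h6, hp, h5⟩)⟩

theorem not_solvable_of_alt (hn : 5 ≤ n)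
    (hcard : Nat.card G = Nat.card (alternatingGroup (Fin n)))
    (hspec : Set.range (orderOf : G → ℕ) = Set.range (orderOf : alternatingGroup (Fin n) → ℕ)) :
    ¬ Group.IsSolvable G := by
  intro hs
  by_cases h11 : 11 ≤ n
  · obtain ⟨N, H, hN, -, -, hsimple, hna, -⟩ := simple_section_of_alt h11 hcard hspec
    haveI := hsimple
    haveI : Group.IsSolvable (↥H ⧸ N.subgroupOf H) :=
      solvable_of_surjective (QuotientGroup.mk'_surjective (N.subgroupOf H))
    exact hna ⟨⟨IsSimpleGroup.comm_iff_isSolvable.2 inferInstance⟩⟩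
  -- degrees 5 to 10
  have main : ∀ p q : ℕ, p.Prime → q.Prime → p ≠ q → n < p + q → p ≤ n → q ≤ n → p ≠ 2 → q ≠ 2 →
      n < 2 * p → ¬ q ∣ p - 1 →
      (∀ i, q ^ i ∣ n.factorial → q ^ i ≡ 1 [MOD p] → i = 0) → False := by
    intro p q hp hq hne hpq hpn hqn hp2 hq2 h2p hqp hmod
    haveI : Fact p.Prime := ⟨hp⟩
    haveI : Fact q.Prime := ⟨hq⟩
    obtain ⟨g, hg⟩ := exists_orderOf_mul_of_solvable (G := G) hne hqp
      (hcard ▸ dvd_card_alt hp hp2 (by omega) hpn)
      (fun h => not_sq_dvd_factorial hp h2p (dvd_factorial_of_dvd_card_alt (by omega) (hcard ▸ h)))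
      (hcard ▸ dvd_card_alt hq hq2 (by omega) hqn)
      (fun i hi h => hmod i (dvd_factorial_of_dvd_card_alt (by omega) (hcard ▸ hi)) h)
    exact no_orderOf_mul_of_spectrum hspec hp hq hne hpq g hg
  have small : ∀ q B : ℕ, ¬ q ^ B ∣ n.factorial → ∀ i, q ^ i ∣ n.factorial → i < B := by
    intro q B hB i hi
    by_contra hc
    exact hB ((Nat.pow_dvd_pow q (by omega)).trans hi)
  rcases lt_or_ge n 7 with h7 | h7
  · refine main 5 3 (by norm_num) (by norm_num) (by norm_num) (by omega) (by omega) (by omega)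
      (by norm_num) (by norm_num) (by omega) (by norm_num) fun i hi hm => ?_
    have hB : ¬ 3 ^ 3 ∣ n.factorial := by interval_cases n <;> decide
    have := small 3 3 hB i hi
    interval_cases i <;> simp [Nat.ModEq] at hm ⊢
  · refine main 7 5 (by norm_num) (by norm_num) (by norm_num) (by omega) (by omega) (by omega)
      (by norm_num) (by norm_num) (by omega) (by norm_num) fun i hi hm => ?_
    have hB : ¬ 5 ^ 3 ∣ n.factorial := by interval_cases n <;> decide
    have := small 5 3 hB i hi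
    interval_cases i <;> simp [Nat.ModEq] at hm ⊢

end Cfsg.Agent.RecogA
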