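import Cfsg.Agent.PrimPart.Bounds

/-!
Primitive prime divisors of `q ^ n - 1` which exceed `n + 1` or divide it twice.
-/

namespace Cfsg.Agent.RecogA

open Polynomial

/-- Certificates `(n, q, M)`: `M` divides `q ^ n - 1` and is prime to all `q ^ i - 1`, `i < n`. -/
def largePrimitiveTable : List (ℕ × ℕ × ℕ) :=
  [(4, 4, 17), (4, 5, 13), (4, 6, 37), (4, 7, 25), (4, 8, 65),
    (6, 4, 13), (6, 6, 31), (6, 7, 43), (6, 8, 19), (6, 9, 73),
    (6, 10, 91), (6, 11, 37), (6, 12, 133), (10, 3, 61), (10, 4, 41),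
    (12, 3, 73), (12, 4, 241), (16, 2, 257), (18, 3, 703), (22, 2, 683),
    (30, 2, 331), (36, 2, 4033), (42, 2, 5419)]

/-- The exceptional pairs. -/
def LargePrimitiveExc (q n : ℕ) : Prop :=
  (q = 2 ∧ (n = 4 ∨ n = 6 ∨ n = 10 ∨ n = 12 ∨ n = 18)) ∨ (q = 3 ∧ (n = 4 ∨ n = 6)) ∨ (q = 5 ∧ n = 6)

instance (q n : ℕ) : Decidable (LargePrimitiveExc q n) := by
  unfold LargePrimitiveExc; infer_instance

/-- The number of units below `n`. -/
def phiList (n : ℕ) : ℕ := ((List.range n).filter fun a => Nat.gcd n a == 1).length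

theorem phiList_eq (n : ℕ) : phiList n = n.totient := by
  rw [phiList, Nat.totient_eq_card_coprime, Finset.card_def, Finset.filter_val, Finset.range_val,
    ← Multiset.coe_range, Multiset.filter_coe, Multiset.coe_card]
  congr 1

/-- Whether the certificate table covers `(q, n)`. -/
def largePrimitiveCheck (q n : ℕ) : Bool :=
  decide (LargePrimitiveExc q n) || largePrimitiveTable.any fun t =>
    t.1 == n && t.2.1 == q && decide (1 < t.2.2 ∧ t.2.2 ≠ n + 1) && (q ^ n - 1) % t.2.2 == 0 &&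
      (List.range n).all fun i => i == 0 || Nat.gcd t.2.2 (q ^ i - 1) == 1

/-- Whether `n` can be skipped or all its small cases are covered. -/
def largePrimitiveDegree (n : ℕ) : Bool :=
  n < 3 || (List.range 30).any (fun d => decide (2 ≤ d ∧ d < n + 1) && (n + 1) % d == 0) ||
    decide (4 * n * (n + 1) < 2 ^ phiList n) ||
      (List.range (2 * n + 2)).all fun q =>
        q < 2 || decide (4 * n * (n + 1) < q ^ phiList n) || largePrimitiveCheck q n

theorem largePrimitiveDegree_all : (List.range 883).all largePrimitiveDegree = true := by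
  decide +kernel

theorem growth_bound {k : ℕ} (hk : 22 ≤ k) : 8 * k ^ 2 * (2 * k ^ 2 + 1) < 2 ^ k := by
  induction k, hk using Nat.le_induction with
  | base => norm_num
  | succ k hk ih =>
    have h1 : (k + 1) ^ 2 * 10 ≤ k ^ 2 * 11 := by nlinarith
    have h2 : (2 * (k + 1) ^ 2 + 1) * 10 ≤ (2 * k ^ 2 + 1) * 11 := by nlinarith
    have h3 := Nat.mul_le_mul h1 h2
    rw [pow_succ 2 k]
    nlinarith

theorem exists_prime_of_coprime_part {q n M : ℕ} (hn : 2 < n) (hq : 2 ≤ q) (h1 : 1 < M)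
    (hne : M ≠ n + 1) (hd : M ∣ q ^ n - 1) (hc : ∀ i, 0 < i → i < n → Nat.gcd M (q ^ i - 1) = 1) :
    ∃ p : ℕ, p.Prime ∧ p ∣ q ^ n - 1 ∧ (∀ i : ℕ, 1 ≤ i → i < n → ¬ p ∣ q ^ i - 1) ∧
      (n + 1 < p ∨ p ^ 2 ∣ q ^ n - 1) := by
  have prim : ∀ p, p.Prime → p ∣ M → ∀ i : ℕ, 1 ≤ i → i < n → ¬ p ∣ q ^ i - 1 :=
    fun p hp hpM i hi hin hpi =>
      hp.not_dvd_one (hc i hi hin ▸ Nat.dvd_gcd hpM hpi)
  have big : ∀ p, p.Prime → p ∣ M → n < p := fun p hp hpM => by
    have : Fact p.Prime := ⟨hp⟩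
    exact Arith.lt_of_orderOf_eq (by omega) ((Arith.primitive_iff_orderOf (by omega) (by omega)).1
      ⟨hpM.trans hd, fun k hk hkn => prim p hp hpM k hk hkn⟩)
  obtain ⟨p, hp, hpM⟩ := Nat.exists_prime_and_dvd h1.ne'
  by_cases hb : n + 1 < p
  · exact ⟨p, hp, hpM.trans hd, prim p hp hpM, Or.inl hb⟩
  obtain rfl : p = n + 1 := by have := big p hp hpM; omega
  obtain ⟨c, rfl⟩ := hpM
  have hc1 : c ≠ 1 := fun h => hne (by rw [h, mul_one])
  obtain ⟨r, hr, hrc⟩ := Nat.exists_prime_and_dvd hc1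
  have hrM : r ∣ (n + 1) * c := hrc.mul_left _
  by_cases hb' : n + 1 < r
  · exact ⟨r, hr, hrM.trans hd, prim r hr hrM, Or.inl hb'⟩
  obtain rfl : r = n + 1 := by have := big r hr hrM; omega
  refine ⟨_, hp, (dvd_mul_right _ _).trans hd, prim _ hp (dvd_mul_right _ _), Or.inr ?_⟩
  rw [pow_two]
  exact (mul_dvd_mul_left _ hrc).trans hd

theorem exists_large_primitive_prime_two {q : ℕ} (hq : 2 ≤ q)
    (h : ¬ ∃ s t : ℕ, t ≤ 1 ∧ q + 1 = 2 ^ s * 3 ^ t) :
    ∃ p : ℕ, p.Prime ∧ p ∣ q ^ 2 - 1 ∧ (∀ i : ℕ, 1 ≤ i → i < 2 → ¬ p ∣ q ^ i - 1) ∧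
      (2 + 1 < p ∨ p ^ 2 ∣ q ^ 2 - 1) := by
  have hdvd : q + 1 ∣ q ^ 2 - 1 := ⟨q - 1, by simpa using Nat.sq_sub_sq q 1⟩
  have prim : ∀ p, p.Prime → p ≠ 2 → p ∣ q + 1 → ∀ i : ℕ, 1 ≤ i → i < 2 → ¬ p ∣ q ^ i - 1 := by
    intro p hp hp2 hpd i hi hi2 hd
    obtain rfl : i = 1 := by omega
    rw [pow_one] at hd
    have := Nat.dvd_sub hpd hd
    rw [show q + 1 - (q - 1) = 2 by omega] at this
    exact hp2 ((Nat.prime_dvd_prime_iff_eq hp Nat.prime_two).1 this)
  by_contra hno
  push Not at hno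
  refine h ⟨(q + 1).factorization 2, (q + 1).factorization 3, ?_, ?_⟩
  · by_contra hbig
    have h9 : 3 ^ 2 ∣ q + 1 := (pow_dvd_pow 3 (by omega)).trans (Nat.ordProj_dvd _ _)
    exact (hno 3 Nat.prime_three ((dvd_pow_self 3 two_ne_zero).trans (h9.trans hdvd))
      (prim 3 Nat.prime_three (by norm_num) ((dvd_pow_self 3 two_ne_zero).trans h9))).2
      (h9.trans hdvd)
  · refine Nat.eq_of_factorization_eq (by omega) (by positivity) fun r => ?_
    rw [Nat.factorization_mul (by positivity) (by positivity), Nat.prime_two.factorization_pow,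
      Nat.prime_three.factorization_pow, Finsupp.add_apply, Finsupp.single_apply, Finsupp.single_apply]
    by_cases h2 : 2 = r
    · subst h2; simp
    by_cases h3 : 3 = r
    · subst h3; simp
    rw [if_neg h2, if_neg h3, add_zero]
    by_contra hne
    have hr : r.Prime := Nat.prime_of_mem_primeFactors (Finsupp.mem_support_iff.2 hne)
    have hrd : r ∣ q + 1 := Nat.dvd_of_factorization_pos hne
    have := (hno r hr (hrd.trans hdvd) (prim r hr (Ne.symm h2) hrd)).1
    have := hr.two_le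
    omega

theorem exists_large_primitive_prime {q n : ℕ} (hq : 2 ≤ q) (hn : 2 < n)
    (hexc : ¬ LargePrimitiveExc q n) :
    ∃ p : ℕ, p.Prime ∧ p ∣ q ^ n - 1 ∧ (∀ i : ℕ, 1 ≤ i → i < n → ¬ p ∣ q ^ i - 1) ∧
      (n + 1 < p ∨ p ^ 2 ∣ q ^ n - 1) := by
  by_contra hno
  push Not at hno
  obtain ⟨P, hP, hPd, hPprim⟩ := Arith.exists_primitive_prime_divisor (a := q) hq (by omega)
    (fun h => hexc (Or.inl ⟨h.1, Or.inr (Or.inl h.2)⟩)) (by omega)
  haveI : Fact P.Prime := ⟨hP⟩
  have hPn : n + 1 = P := by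
    have h1 := (hno P hP hPd hPprim).1
    have h2 := Arith.lt_of_orderOf_eq (by omega) ((Arith.primitive_iff_orderOf (by omega)
      (by omega)).1 ⟨hPd, hPprim⟩)
    omega
  set v := ((cyclotomic n ℤ).eval (q : ℤ)).natAbs with hv
  have hv0 : 0 < v := Arith.natAbs_cyclotomic_eval_pos hq n
  have hvd : v ∣ q ^ n - 1 := by
    rw [Arith.pow_sub_one_eq_prod_cyclotomic (by omega) (by omega)]
    exact Finset.dvd_prod_of_mem _ (Nat.mem_divisors_self n (by omega))
  have prime_cases : ∀ r, r.Prime → r ∣ v → r = n + 1 ∨ r ∣ n := fun r hr hrv => by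
    haveI : Fact r.Prime := ⟨hr⟩
    by_cases hrn : r ∣ n
    · exact Or.inr hrn
    left
    have ho := Arith.orderOf_eq_of_dvd_cyclotomic hrn (Int.natCast_dvd.mpr hrv)
    obtain ⟨h1, h2⟩ := (Arith.primitive_iff_orderOf (by omega) (by omega)).2 ho
    have h3 := (hno r hr h1 h2).1
    have h4 := Arith.lt_of_orderOf_eq (by omega) ho
    omega
  -- at most one prime of `v` divides `n`
  have bound : v ∣ (n + 1) * n := by
    rw [Nat.dvd_iff_prime_pow_dvd_dvd]
    intro r k hr hk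
    haveI : Fact r.Prime := ⟨hr⟩
    rcases k with - | k
    · simp
    have hrv : r ∣ v := (dvd_pow_self r k.succ_ne_zero).trans hk
    have hk0 : k = 0 := by
      by_contra hk0
      have hsq : r ^ 2 ∣ v := (pow_dvd_pow r (by omega)).trans hk
      rcases prime_cases r hr hrv with h | h
      · obtain ⟨h1, h2⟩ := (Arith.primitive_iff_orderOf (by omega) (by omega)).2
          (Arith.orderOf_eq_of_dvd_cyclotomic
            (fun h' => by have := Nat.le_of_dvd (by omega) h'; omega) (Int.natCast_dvd.mpr hrv))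
        exact (hno r hr h1 h2).2 (hsq.trans hvd)
      · refine Arith.not_sq_dvd_cyclotomic hn hq h (Int.natCast_dvd.mpr hrv) ?_
        rw [← Nat.cast_pow, Int.natCast_dvd]
        exact hsq
    subst hk0
    rw [zero_add, pow_one]
    rcases prime_cases r hr hrv with h | h
    · exact h ▸ dvd_mul_right _ _
    · exact h.mul_left _
  have hmain : q ^ n.totient ≤ 4 * n * (n + 1) := by
    refine (PrimPart.pow_totient_le_cyclotomic hq (by omega)).trans ?_
    have := Nat.le_of_dvd (by positivity) bound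
    calc 4 * v ≤ 4 * ((n + 1) * n) := Nat.mul_le_mul_left 4 this
      _ = _ := by ring
  have h2φ : 2 ^ n.totient ≤ 4 * n * (n + 1) := (Nat.pow_le_pow_left hq _).trans hmain
  have hsmall : n.totient ≤ 21 := by
    by_contra hbig
    have h1 := growth_bound (k := n.totient) (by omega)
    have h2 := (PrimPart.le_totient_sq n).1
    have h3 : 4 * n * (n + 1) ≤ 8 * n.totient ^ 2 * (2 * n.totient ^ 2 + 1) :=
      Nat.mul_le_mul (by omega) (by omega)
    omega
  have hn883 : n < 883 := by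
    have h2 := (PrimPart.le_totient_sq n).1
    have := Nat.pow_le_pow_left hsmall 2
    omega
  have hqn : q < 2 * n + 2 := by
    have h2 : 2 ≤ n.totient := (Nat.totient_even hn).two_dvd |> Nat.le_of_dvd (Nat.totient_pos.2 (by omega))
    have h3 := (Nat.pow_le_pow_right (by omega : 1 ≤ q) h2).trans hmain
    nlinarith
  have hc := List.all_eq_true.1 largePrimitiveDegree_all n (List.mem_range.2 hn883)
  simp only [largePrimitiveDegree, phiList_eq, Bool.or_eq_true, decide_eq_true_eq, List.any_eq_true,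
    List.all_eq_true, List.mem_range, Bool.and_eq_true, beq_iff_eq] at hc
  rcases hc with ((hc | ⟨d, -, ⟨hd2, hdn⟩, hd⟩) | hc) | hc
  · omega
  · subst hPn
    rcases (Nat.dvd_prime hP).1 (Nat.dvd_of_mod_eq_zero hd) with h | h <;> omega
  · omega
  · rcases hc q hqn with (h | h) | h
    · omega
    · omega
    · simp only [largePrimitiveCheck, Bool.or_eq_true, decide_eq_true_eq, List.any_eq_true,
        Bool.and_eq_true, beq_iff_eq, List.all_eq_true, List.mem_range] at h
      rcases h with h | ⟨t, -, ⟨⟨⟨⟨-, -⟩, h1⟩, h2⟩, h3⟩⟩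
      · exact hexc h
      obtain ⟨p, hp, a1, a2, a3⟩ := exists_prime_of_coprime_part hn hq h1.1 h1.2
        (Nat.dvd_of_mod_eq_zero h2) (fun i hi hin => by
          rcases h3 i hin with h | h
          · omega
          · exact h)
      rcases a3 with a3 | a3
      · exact absurd a3 (by have := (hno p hp a1 a2).1; omega)
      · exact (hno p hp a1 a2).2 a3

end Cfsg.Agent.RecogA
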