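import Cfsg.Agent.Lib.FrobeniusCount
import Cfsg.Agent.RecogA.SameOrderData
import Mathlib

/-!
Groups determined by the numbers of elements of each order: the arithmetic part.
-/

namespace Cfsg.Agent.RecogA

open Classical in
/-- The element orders, as a finset. -/
noncomputable def orderSet (G : Type*) [Group G] [Finite G] : Finset ℕ :=
  letI := Fintype.ofFinite G
  Finset.univ.image (orderOf : G → ℕ)

/-- The number of elements of order `m`. -/
noncomputable def orderCount (G : Type*) [Group G] (m : ℕ) : ℕ := Nat.card {g : G // orderOf g = m}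

variable {G : Type*} [Group G] [Finite G]

theorem mem_orderSet {m : ℕ} : m ∈ orderSet G ↔ m ∈ Set.range (orderOf : G → ℕ) := by
  simp [orderSet]

theorem orderSet_dvd {m d : ℕ} (hm : m ∈ orderSet G) (hd : d ∣ m) : d ∈ orderSet G := by
  rw [mem_orderSet] at hm ⊢
  obtain ⟨g, rfl⟩ := hm
  exact ⟨g ^ (orderOf g / d), orderOf_pow_orderOf_div (orderOf_pos g).ne' hd⟩

theorem one_mem_orderSet : (1 : ℕ) ∈ orderSet G := mem_orderSet.2 ⟨1, orderOf_one⟩

theorem pos_of_mem_orderSet {m : ℕ} (hm : m ∈ orderSet G) : 0 < m := by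
  obtain ⟨g, rfl⟩ := mem_orderSet.1 hm
  exact orderOf_pos g

theorem orderCount_one : orderCount G 1 = 1 := by
  rw [orderCount, Nat.card_eq_one_iff_exists]
  exact ⟨⟨1, orderOf_one⟩, fun g => Subtype.ext (orderOf_eq_one_iff.1 g.2)⟩

theorem card_pow_eq_one (k : ℕ) :
    Nat.card {g : G // g ^ k = 1} = ∑ d ∈ (orderSet G).filter (· ∣ k), orderCount G d := by
  classical
  letI := Fintype.ofFinite G
  rw [Nat.card_eq_fintype_card, Fintype.card_subtype,
    Finset.card_eq_sum_card_fiberwise (f := fun g : G => orderOf g)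
      (t := (orderSet G).filter (· ∣ k))
      (fun g hg => Finset.mem_filter.2 ⟨mem_orderSet.2 ⟨g, rfl⟩,
        orderOf_dvd_of_pow_eq_one (Finset.mem_filter.1 hg).2⟩)]
  refine Finset.sum_congr rfl fun d hd => ?_
  rw [orderCount, Nat.card_eq_fintype_card, Fintype.card_subtype, Finset.filter_filter]
  congr 1
  refine Finset.filter_congr fun g _ => ⟨fun h => h.2, fun h => ⟨?_, h⟩⟩
  exact orderOf_dvd_iff_pow_eq_one.1 (h ▸ (Finset.mem_filter.1 hd).2)

theorem card_eq_sum_orderCount : Nat.card G = ∑ d ∈ orderSet G, orderCount G d := by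
  have h := card_pow_eq_one (G := G) (Nat.card G)
  have e : (orderSet G).filter (· ∣ Nat.card G) = orderSet G := by
    refine Finset.filter_true_of_mem fun d hd => ?_
    obtain ⟨g, rfl⟩ := mem_orderSet.1 hd
    exact orderOf_dvd_natCard g
  rw [e] at h
  rw [← h]
  exact Nat.card_congr (Equiv.subtypeUnivEquiv fun g => pow_card_eq_one').symm

theorem gcd_dvd_sum (k : ℕ) :
    Nat.gcd k (Nat.card G) ∣ ∑ d ∈ (orderSet G).filter (· ∣ k), orderCount G d := by
  rw [← card_pow_eq_one]; exact FrobeniusCount.frobenius_gcd k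

theorem totient_dvd_orderCount (m : ℕ) : m.totient ∣ orderCount G m := by
  refine FrobeniusCount.totient_dvd_card (fun g : G => orderOf g = m) (fun x y h hx => ?_) m
    (fun x hx => dvd_of_eq hx.symm)
  rw [← Nat.card_zpowers, ← h, Nat.card_zpowers]
  exact hx

theorem orderCount_pos {m : ℕ} (hm : m ∈ orderSet G) : 0 < orderCount G m := by
  obtain ⟨g, rfl⟩ := mem_orderSet.1 hm
  haveI : Nonempty {x : G // orderOf x = orderOf g} := ⟨⟨g, rfl⟩⟩
  exact Nat.card_pos

theorem sumDvd_map (c : ℕ → ℕ) (L : List ℕ) (k : ℕ) :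
    sumDvd (L.map fun d => (d, c d)) k = ((L.filter fun d => decide (d ∣ k)).map c).sum := by
  induction L with
  | nil => rfl
  | cons a L ih =>
    simp only [List.map_cons, sumDvd, List.foldr_cons] at ih ⊢
    by_cases h : a ∣ k
    · rw [if_pos (by simpa [Nat.dvd_iff_mod_eq_zero] using h), List.filter_cons_of_pos (by simpa using h),
        List.map_cons, List.sum_cons, ih]
    · rw [if_neg (by simpa [Nat.dvd_iff_mod_eq_zero] using h), List.filter_cons_of_neg (by simpa using h),
        ih]

theorem sumAll_map (c : ℕ → ℕ) (L : List ℕ) : sumAll (L.map fun d => (d, c d)) = (L.map c).sum := by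
  induction L with
  | nil => rfl
  | cons a L ih =>
    simp only [List.map_cons, sumAll, List.foldr_cons, List.sum_cons] at ih ⊢
    rw [ih]

theorem hasKey_map (c : ℕ → ℕ) (L : List ℕ) (e : ℕ) :
    hasKey (L.map fun d => (d, c d)) e = true ↔ e ∈ L := by
  simp [hasKey]

theorem prod_filter_eq (L : List ℕ) : L.foldr (fun p acc => p * acc) 1 = L.prod := rfl

/-- Every element order is treated by the table, so the search determines the table. -/
theorem nseSearch_sound (vals ps : List ℕ) (ks : List ℕ) (target : List (ℕ × ℕ))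
    (table : List (ℕ × List ℕ × List ℕ)) (hvals : ∀ v ∈ vals, ∃ m ∈ orderSet G, orderCount G m = v)
    (hps : ∀ p, p.Prime → p ∈ orderSet G → p ∈ ps)
    (hpow : ∀ p ∈ ps, ∀ k, p ^ k ∣ Nat.card G → k ≤ 20)
    (hfac : ∀ t ∈ table, ∀ e ∈ t.2.1, e ∣ t.1 ∧ e < t.1)
    (hL : ∀ t ∈ table, t.1 ∈ orderSet G → orderCount G t.1 ∈ t.2.2) :
    ∀ (rest : List (ℕ × List ℕ × List ℕ)) (L : List ℕ), L.Nodup → (∀ d ∈ L, d ∈ orderSet G) →
      (∀ t ∈ rest, t ∈ table ∧ t.1 ∉ L) →
      (∀ d ∈ orderSet G, d ∉ L → ∃ t ∈ rest, t.1 = d) →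
      List.Pairwise (fun s t : ℕ × List ℕ × List ℕ => s.1 < t.1) rest →
      nseSearch vals ks ps target rest (L.map fun d => (d, orderCount G d)) = true →
      ∃ L' : List ℕ, (∀ d, d ∈ L' ↔ d ∈ orderSet G) ∧ (L'.map fun d => (d, orderCount G d)) = target ∧
        Nat.card G = sumAll target := by
  intro rest
  induction rest with
  | nil =>
    intro L hnd hsub _ hcov _ hs
    have hmem : ∀ d, d ∈ L ↔ d ∈ orderSet G := fun d => ⟨hsub d, fun hd => by
      by_contra h
      obtain ⟨t, ht, -⟩ := hcov d hd h
      exact List.not_mem_nil ht⟩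
    have hfin : L.toFinset = orderSet G := Finset.ext fun d => by rw [List.mem_toFinset, hmem]
    have htot : sumAll (L.map fun d => (d, orderCount G d)) = Nat.card G := by
      rw [sumAll_map, card_eq_sum_orderCount, ← hfin, List.sum_toFinset _ hnd]
    have hsd : ∀ k, sumDvd (L.map fun d => (d, orderCount G d)) k =
        ∑ d ∈ (orderSet G).filter (· ∣ k), orderCount G d := by
      intro k
      rw [sumDvd_map, ← List.sum_toFinset _ (hnd.filter _), ← hfin]
      congr 1
      ext d
      simp
    have hleaf : leafCond vals ks ps (L.map fun d => (d, orderCount G d)) = true := by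
      simp only [leafCond, Bool.and_eq_true, List.all_eq_true, List.any_eq_true, List.mem_map,
        Nat.beq_eq]
      refine ⟨⟨⟨fun v hv => ?_, ?_⟩, ?_⟩, fun k _ => ?_⟩
      · obtain ⟨m, hm, hc⟩ := hvals v hv
        exact ⟨_, ⟨m, (hmem m).2 hm, rfl⟩, hc⟩
      · rintro _ ⟨d, hd, rfl⟩
        obtain ⟨g, rfl⟩ := mem_orderSet.1 (hsub d hd)
        rw [htot, Nat.mod_eq_zero_of_dvd]
        exact orderOf_dvd_natCard g
      · rw [htot, prod_filter_eq]
        refine Nat.mod_eq_zero_of_dvd ?_
        rw [Nat.dvd_iff_prime_pow_dvd_dvd]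
        intro r k hr hk
        rcases Nat.eq_zero_or_pos k with rfl | hk0
        · simp
        haveI := Fact.mk hr
        obtain ⟨g, hg⟩ := exists_prime_orderOf_dvd_card' r ((dvd_pow_self r hk0.ne').trans hk)
        have hrD : r ∈ orderSet G := mem_orderSet.2 ⟨g, hg⟩
        refine (pow_dvd_pow r (hpow r (hps r hr hrD) k hk)).trans (pow_dvd_pow_of_dvd ?_ 20)
        exact List.dvd_prod (List.mem_filter.2 ⟨hps r hr hrD,
          (hasKey_map _ _ _).2 ((hmem r).2 hrD)⟩)
      · rw [hsd, htot]
        exact Nat.mod_eq_zero_of_dvd (gcd_dvd_sum k)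
    simp only [nseSearch, hleaf, Bool.not_true, Bool.false_or, decide_eq_true_eq] at hs
    exact ⟨L, hmem, hs, by rw [← hs, htot]⟩
  | cons t rest ih =>
    obtain ⟨m, fac, vs⟩ := t
    intro L hnd hsub hrest hcov hpw hs
    simp only [nseSearch, Bool.and_eq_true] at hs
    rw [List.pairwise_cons] at hpw
    obtain ⟨htab, hmL⟩ := hrest _ List.mem_cons_self
    by_cases hm : m ∈ orderSet G
    · refine ih (m :: L) (List.nodup_cons.2 ⟨hmL, hnd⟩)
        (fun d hd => by rcases List.mem_cons.1 hd with rfl | hd; exacts [hm, hsub d hd])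
        (fun s hs' => ⟨(hrest s (List.mem_cons_of_mem _ hs')).1, fun h => by
          rcases List.mem_cons.1 h with h | h
          · exact absurd h (Nat.ne_of_gt (hpw.1 s hs'))
          · exact (hrest s (List.mem_cons_of_mem _ hs')).2 h⟩)
        (fun d hd hdL => by
          obtain ⟨s, hs', rfl⟩ := hcov d hd fun h => hdL (List.mem_cons_of_mem _ h)
          rcases List.mem_cons.1 hs' with rfl | hs'
          · exact absurd List.mem_cons_self hdL
          · exact ⟨s, hs', rfl⟩) hpw.2 ?_
      have h2 := hs.2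
      simp only [Bool.or_eq_true, Bool.not_eq_true', List.all_eq_true, List.all_eq_false,
        Nat.beq_eq] at h2
      rcases h2 with ⟨e, he, h⟩ | h2
      · exfalso
        apply h
        rw [hasKey_map]
        obtain ⟨hed, helt⟩ : e ∣ m ∧ e < m := hfac _ htab e he
        have hem : e ≠ m := helt.ne
        by_contra heL
        obtain ⟨s, hs', hse⟩ := hcov e (orderSet_dvd hm hed) heL
        have hlt : e < m := lt_of_le_of_ne (Nat.le_of_dvd (pos_of_mem_orderSet hm) hed) hem
        rcases List.mem_cons.1 hs' with rfl | hs'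
        · exact hem hse.symm
        · have := hpw.1 s hs'
          simp only at this
          omega
      rcases h2 _ (hL _ htab hm) with h | h
      · exfalso
        have hg := gcd_dvd_sum (G := G) m
        obtain ⟨g, hgm⟩ := mem_orderSet.1 hm
        have hmc : m ∣ Nat.card G := hgm ▸ orderOf_dvd_natCard g
        rw [Nat.gcd_eq_left hmc] at hg
        have hsplit : ((orderSet G).filter (· ∣ m)) =
            insert m ((L.filter fun d => decide (d ∣ m)).toFinset) := by
          ext d
          simp only [Finset.mem_filter, Finset.mem_insert, List.mem_toFinset, List.mem_filter,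
            decide_eq_true_eq]
          constructor
          · rintro ⟨hd, hdm⟩
            by_cases hdm' : d = m
            · exact Or.inl hdm'
            refine Or.inr ⟨?_, hdm⟩
            by_contra hdL
            obtain ⟨s, hs', hse⟩ := hcov d hd hdL
            have hlt : d < m := lt_of_le_of_ne (Nat.le_of_dvd (pos_of_mem_orderSet hm) hdm) hdm'
            rcases List.mem_cons.1 hs' with rfl | hs'
            · exact hdm' hse.symm
            · have := hpw.1 s hs'
              simp only at this
              omega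
          · rintro (rfl | ⟨hd, hdm⟩)
            exacts [⟨hm, dvd_rfl⟩, ⟨hsub d hd, hdm⟩]
        rw [hsplit, Finset.sum_insert (by simp [hmL]), List.sum_toFinset _ (hnd.filter _),
          ← sumDvd_map, add_comm] at hg
        have := Nat.mod_eq_zero_of_dvd hg
        rw [← Nat.beq_eq, h] at this
        exact Bool.false_ne_true this
      · exact h
    · exact ih L hnd hsub (fun s hs' => hrest s (List.mem_cons_of_mem _ hs'))
        (fun d hd hdL => by
          obtain ⟨s, hs', rfl⟩ := hcov d hd hdL
          rcases List.mem_cons.1 hs' with rfl | hs'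
          · exact absurd hd hm
          · exact ⟨s, hs', rfl⟩) hpw.2 hs.1

end Cfsg.Agent.RecogA
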