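import Cfsg.Agent.RecogA.SameOrderCount
import Cfsg.Agent.RecogA.A5Orders
import Cfsg.Agent.RecogA.A6Orders
import Cfsg.Agent.Linear.OrderSixty
import Cfsg.Agent.SmallPSL.Six

/-!
`A4`, `A5` and `A6` are determined by their numbers of elements of each order.
-/

namespace Cfsg.Agent.RecogA

set_option synthInstance.maxSize 2048
set_option synthInstance.maxHeartbeats 200000

variable {G : Type*} [Group G] [Finite G]

theorem even_orderCount {m : ℕ} (hm : 3 ≤ m) : 2 ∣ orderCount G m :=
  (Nat.totient_even (by omega)).two_dvd.trans (totient_dvd_orderCount m)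

theorem nse_counts (s2 : ℕ) (vals ps : List ℕ) (e : ℕ → ℕ)
    (table : List (ℕ × List ℕ × List ℕ)) (target : List (ℕ × ℕ))
    (himg : ∀ v : ℕ, (∃ m ∈ orderSet G, orderCount G m = v) ↔ v = 1 ∨ v = s2 ∨ v ∈ vals)
    (hs2 : s2 % 2 = 1 ∧ 1 < s2) (hbound : ∀ v ∈ vals, v ≤ 200) (hs2b : s2 ≤ 200)
    (h2ps : 2 ∈ ps) (hps : ∀ p ∈ ps, p = 2 ∨ p = 3 ∨ p = 5 ∨ p = 7)
    (hprime : ∀ v ∈ vals, ∀ p < v + 2, 3 ≤ p → (p - 1) ∣ v → p ∣ v + 1 →
      p ∈ ps ∨ ∃ d < p, 2 ≤ d ∧ d ∣ p)
    (hexp : ∀ p ∈ ps, 3 ≤ p ^ (e p + 1) ∧ ∀ v ∈ vals, ¬ p ^ e p * (p - 1) ∣ v)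
    (hcover : ∀ i < e 2 + 1, ∀ j < e 3 + 1, ∀ k < e 5 + 1, ∀ l < e 7 + 1, 3 ≤ 2 ^ i * 3 ^ j * 5 ^ k * 7 ^ l →
      ∀ v ∈ vals, Nat.totient (2 ^ i) * Nat.totient (3 ^ j) * Nat.totient (5 ^ k) * Nat.totient (7 ^ l) ∣ v →
        ∃ t ∈ table, t.1 = 2 ^ i * 3 ^ j * 5 ^ k * 7 ^ l ∧ v ∈ t.2.2)
    (htable : (∀ t ∈ table, 3 ≤ t.1 ∧ ∀ f ∈ t.2.1, f ∣ t.1 ∧ f < t.1) ∧
      List.Pairwise (fun s t : ℕ × List ℕ × List ℕ => s.1 < t.1) table ∧ table.length ≤ 100)
    (hsearch : nseSearch vals (nseModuli ps table) ps target table [(2, s2), (1, 1)] = true) :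
    ∃ L : List ℕ, (∀ d, d ∈ L ↔ d ∈ orderSet G) ∧
      (L.map fun d => (d, orderCount G d)) = target ∧ Nat.card G = sumAll target := by
  obtain ⟨h2D, hc2⟩ : 2 ∈ orderSet G ∧ orderCount G 2 = s2 := by
    obtain ⟨m, hm, hc⟩ := (himg s2).2 (Or.inr (Or.inl rfl))
    have hm0 := pos_of_mem_orderSet hm
    rcases (by omega : m = 1 ∨ m = 2 ∨ 3 ≤ m) with rfl | rfl | h3
    · rw [orderCount_one] at hc; omega
    · exact ⟨hm, hc⟩
    · have := even_orderCount (G := G) h3; omega
  have hval : ∀ m ∈ orderSet G, 3 ≤ m → orderCount G m ∈ vals := by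
    intro m hm h3
    have h2 := even_orderCount (G := G) h3
    rcases (himg _).1 ⟨m, hm, rfl⟩ with h | h | h
    · omega
    · omega
    · exact h
  have hprimes : ∀ p, p.Prime → p ∈ orderSet G → p ∈ ps := by
    intro p hp hpD
    rcases (by have := hp.two_le; omega : p = 2 ∨ 3 ≤ p) with rfl | h3
    · exact h2ps
    have hv := hval p hpD h3
    have htot : p - 1 ∣ orderCount G p := Nat.totient_prime hp ▸ totient_dvd_orderCount p
    have hfil : (orderSet G).filter (· ∣ p) = {1, p} := by
      ext d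
      simp only [Finset.mem_filter, Finset.mem_insert, Finset.mem_singleton, Nat.dvd_prime hp]
      refine ⟨fun h => h.2, fun h => ⟨?_, h⟩⟩
      rcases h with rfl | rfl
      exacts [one_mem_orderSet, hpD]
    have hfr := gcd_dvd_sum (G := G) p
    obtain ⟨g, hg⟩ := mem_orderSet.1 hpD
    rw [Nat.gcd_eq_left (hg ▸ orderOf_dvd_natCard g), hfil, Finset.sum_pair (by omega),
      orderCount_one, add_comm] at hfr
    have hlt := Nat.le_of_dvd (by omega) hfr
    rcases hprime _ hv p (by omega) h3 htot hfr with h | ⟨d, hd, hd2, hdp⟩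
    · exact h
    · rcases (Nat.dvd_prime hp).1 hdp with h | h <;> omega
  have hexp' : ∀ m ∈ orderSet G, ∀ r k, r.Prime → r ^ k ∣ m → 1 ≤ k → r ∈ ps ∧ k ≤ e r := by
    intro m hm r k hr hk hk1
    have hrp : r ∈ ps := hprimes r hr (orderSet_dvd hm ((dvd_pow_self r (by omega)).trans hk))
    refine ⟨hrp, ?_⟩
    by_contra hke
    have hD := orderSet_dvd hm ((pow_dvd_pow r (by omega : e r + 1 ≤ k)).trans hk)
    have := totient_dvd_orderCount (G := G) (r ^ (e r + 1))
    rw [Nat.totient_prime_pow_succ hr] at this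
    exact (hexp r hrp).2 _ (hval _ hD (hexp r hrp).1) this
  have htab : ∀ m ∈ orderSet G, 3 ≤ m → ∃ t ∈ table, t.1 = m ∧ orderCount G m ∈ t.2.2 := by
    intro m hm h3
    have hB : m ∣ 2 ^ e 2 * 3 ^ e 3 * 5 ^ e 5 * 7 ^ e 7 := by
      rw [Nat.dvd_iff_prime_pow_dvd_dvd]
      intro r k hr hk
      rcases Nat.eq_zero_or_pos k with rfl | hk1
      · simp
      obtain ⟨hrp, hle⟩ := hexp' m hm r k hr hk hk1
      refine (pow_dvd_pow r hle).trans ?_
      rcases hps r hrp with rfl | rfl | rfl | rfl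
      · exact ((dvd_mul_right _ _).trans (dvd_mul_right _ _)).trans (dvd_mul_right _ _)
      · exact ((dvd_mul_left _ _).trans (dvd_mul_right _ _)).trans (dvd_mul_right _ _)
      · exact (dvd_mul_left _ _).trans (dvd_mul_right _ _)
      · exact dvd_mul_left _ _
    obtain ⟨x, d, hx, hd, rfl⟩ := Nat.dvd_mul.1 hB
    obtain ⟨y, c, hy, hc, rfl⟩ := Nat.dvd_mul.1 hx
    obtain ⟨a, b, ha, hb, rfl⟩ := Nat.dvd_mul.1 hy
    obtain ⟨i, hi, rfl⟩ := (Nat.dvd_prime_pow (by norm_num : Nat.Prime 2)).1 ha
    obtain ⟨j, hj, rfl⟩ := (Nat.dvd_prime_pow (by norm_num : Nat.Prime 3)).1 hb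
    obtain ⟨k, hk, rfl⟩ := (Nat.dvd_prime_pow (by norm_num : Nat.Prime 5)).1 hc
    obtain ⟨l, hl, rfl⟩ := (Nat.dvd_prime_pow (by norm_num : Nat.Prime 7)).1 hd
    refine hcover i (by omega) j (by omega) k (by omega) l (by omega) h3 _ (hval _ hm h3) ?_
    have c1 : Nat.Coprime (2 ^ i) (3 ^ j) := Nat.Coprime.pow i j (by norm_num)
    have c2 : Nat.Coprime (2 ^ i * 3 ^ j) (5 ^ k) :=
      Nat.Coprime.mul_left (Nat.Coprime.pow i k (by norm_num)) (Nat.Coprime.pow j k (by norm_num))
    have c3 : Nat.Coprime (2 ^ i * 3 ^ j * 5 ^ k) (7 ^ l) :=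
      Nat.Coprime.mul_left (Nat.Coprime.mul_left (Nat.Coprime.pow i l (by norm_num))
        (Nat.Coprime.pow j l (by norm_num))) (Nat.Coprime.pow k l (by norm_num))
    rw [← Nat.totient_mul c1, ← Nat.totient_mul c2, ← Nat.totient_mul c3]
    exact totient_dvd_orderCount _
  have hsub : orderSet G ⊆ insert 1 (insert 2 (table.map fun t => t.1).toFinset) := by
    intro m hm
    have := pos_of_mem_orderSet hm
    simp only [Finset.mem_insert, List.mem_toFinset, List.mem_map]
    rcases (by omega : m = 1 ∨ m = 2 ∨ 3 ≤ m) with h | h | h3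
    · exact Or.inl h
    · exact Or.inr (Or.inl h)
    · obtain ⟨t, ht, he, -⟩ := htab m hm h3
      exact Or.inr (Or.inr ⟨t, ht, he⟩)
  have hcard : Nat.card G ≤ 102 * 200 := by
    rw [card_eq_sum_orderCount]
    refine (Finset.sum_le_card_nsmul _ _ 200 fun m hm => ?_).trans ?_
    · rcases (himg _).1 ⟨m, hm, rfl⟩ with h | h | h
      · omega
      · omega
      · exact hbound _ h
    · rw [smul_eq_mul]
      refine Nat.mul_le_mul_right _ ((Finset.card_le_card hsub).trans ?_)
      have h1 := List.toFinset_card_le (table.map fun t => t.1)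
      rw [List.length_map] at h1
      have h3 := Finset.card_insert_le 1 (insert 2 (table.map fun t => t.1).toFinset)
      have h4 := Finset.card_insert_le 2 (table.map fun t => t.1).toFinset
      have := htable.2.2
      omega
  have hstart : ([2, 1] : List ℕ).map (fun d => (d, orderCount G d)) = [(2, s2), (1, 1)] := by
    simp [hc2, orderCount_one]
  refine nseSearch_sound vals ps (nseModuli ps table) target table
    (fun v hv => (himg v).2 (Or.inr (Or.inr hv))) hprimes ?_ (fun t ht => (htable.1 t ht).2) ?_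
    table [2, 1] (by simp) (fun d hd => ?_) (fun t ht => ⟨ht, ?_⟩) (fun d hd hdL => ?_) htable.2.1
    (by rw [hstart]; exact hsearch)
  · intro p hp k hk
    have h2 : 2 ≤ p := by rcases hps p hp with rfl | rfl | rfl | rfl <;> norm_num
    by_contra hk20
    have := (Nat.le_of_dvd Nat.card_pos hk).trans hcard
    have h3 : 2 ^ 21 ≤ p ^ k :=
      (Nat.pow_le_pow_left h2 21).trans (Nat.pow_le_pow_right (by omega) (by omega))
    omega
  · intro t ht hD
    obtain ⟨t', ht', he, hv⟩ := htab t.1 hD (htable.1 t ht).1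
    have hinj := List.inj_on_of_nodup_map (f := fun s : ℕ × List ℕ × List ℕ => s.1)
      (List.pairwise_map.2 (htable.2.1.imp fun h => Nat.ne_of_lt h))
    rw [hinj ht' ht he] at hv
    exact hv
  · simp only [List.mem_cons, List.not_mem_nil, or_false] at hd
    rcases hd with rfl | rfl
    exacts [h2D, one_mem_orderSet]
  · have := (htable.1 t ht).1
    simp
    omega
  · simp only [List.mem_cons, List.not_mem_nil, or_false, not_or] at hdL
    have := pos_of_mem_orderSet hd
    obtain ⟨t, ht, he, -⟩ := htab d hd (by omega)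
    exact ⟨t, ht, he⟩

theorem orderCount_prime_eq (p : ℕ) [Fact p.Prime] :
    orderCount G p = Nat.card {g : G // g ^ p = 1 ∧ g ≠ 1} :=
  Nat.card_congr (Equiv.subtypeEquivRight fun g => orderOf_eq_prime_iff)

theorem orderCount_four_eq : orderCount G 4 = Nat.card {g : G // g ^ 4 = 1 ∧ g ^ 2 ≠ 1} :=
  Nat.card_congr (Equiv.subtypeEquivRight fun g => by
    haveI : Fact (Nat.Prime 2) := ⟨Nat.prime_two⟩
    constructor
    · intro h
      exact ⟨h ▸ pow_orderOf_eq_one g, pow_ne_one_of_lt_orderOf (by norm_num) (by omega)⟩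
    · rintro ⟨h1, h2⟩
      exact orderOf_eq_prime_pow (p := 2) (n := 1) (by simpa using h2) (by simpa using h1))

theorem mem_of_prime_dvd {p : ℕ} (hp : p.Prime) (hd : p ∣ Nat.card G) : p ∈ orderSet G := by
  haveI := Fact.mk hp
  obtain ⟨g, hg⟩ := exists_prime_orderOf_dvd_card' p hd
  exact mem_orderSet.2 ⟨g, hg⟩

/-- All elements of order `p` lie in a normal subgroup containing a Sylow `p`-subgroup. -/
theorem mem_of_sylow_le {p : ℕ} [Fact p.Prime] (N : Subgroup G) [N.Normal]
    (h : ¬ p ∣ N.index) {g : G} (hg : g ^ p = 1) : g ∈ N := by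
  have h1 : (g : G ⧸ N) ^ p = 1 := by rw [← QuotientGroup.mk_pow, hg, QuotientGroup.mk_one]
  rw [← QuotientGroup.eq_one_iff]
  rcases (Nat.dvd_prime (Fact.out : p.Prime)).1 (orderOf_dvd_of_pow_eq_one h1) with h2 | h2
  · exact orderOf_eq_one_iff.1 h2
  · exact absurd (h2 ▸ orderOf_dvd_natCard (g : G ⧸ N)) h

/-- A normal subgroup contains either few or all elements of a prime order. -/
theorem orderCount_lt_of_not_dvd_index {p : ℕ} [Fact p.Prime] (N : Subgroup G) [N.Normal]
    (h : ¬ p ∣ N.index) : orderCount G p < Nat.card N := by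
  classical
  letI := Fintype.ofFinite G
  rw [orderCount_prime_eq, Nat.card_eq_fintype_card, Nat.card_eq_fintype_card, Fintype.card_subtype,
    Fintype.card_subtype]
  refine Finset.card_lt_card ?_
  rw [Finset.ssubset_iff_of_subset ?_]
  · exact ⟨1, by simp [N.one_mem], by simp⟩
  · intro g hg
    simp only [Finset.mem_filter, Finset.mem_univ, true_and] at hg ⊢
    exact mem_of_sylow_le N h hg.1

/-- A normal subgroup on which an element of order five acts without fixed points. -/
theorem card_mod_five (h5 : ∀ m ∈ orderSet G, 5 ∣ m → m = 5) {x : G} (hx : orderOf x = 5)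
    (N : Subgroup G) [N.Normal] (hN : ¬ 5 ∣ Nat.card N) (S : Set N)
    (hS : ∀ g : G, ∀ y ∈ S, (⟨g * y.1 * g⁻¹, Subgroup.Normal.conj_mem ‹_› _ y.2 g⟩ : N) ∈ S)
    (h1 : (1 : N) ∉ S) : 5 ∣ Nat.card S := by
  haveI : Fact (Nat.Prime 5) := ⟨by norm_num⟩
  have hP : IsPGroup 5 (Subgroup.zpowers x) :=
    IsPGroup.of_card (n := 1) (by rw [Nat.card_zpowers, hx, pow_one])
  let act : MulAction (Subgroup.zpowers x) S :=
    { smul := fun g y => ⟨⟨g.1 * y.1.1 * g.1⁻¹, Subgroup.Normal.conj_mem ‹_› _ y.1.2 g.1⟩,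
        hS g.1 y.1 y.2⟩
      one_smul := fun y => Subtype.ext (Subtype.ext (by show (1 : G) * _ * 1⁻¹ = _; simp))
      mul_smul := fun g g' y => Subtype.ext (Subtype.ext (by
        show (g.1 * g'.1) * _ * (g.1 * g'.1)⁻¹ = g.1 * (g'.1 * _ * g'.1⁻¹) * g.1⁻¹
        group)) }
  have h := hP.card_modEq_card_fixedPoints S
  have he : IsEmpty (MulAction.fixedPoints (Subgroup.zpowers x) S) := ⟨fun ⟨y, hy⟩ => by
    have hxy : x * y.1.1 * x⁻¹ = y.1.1 :=
      congrArg (fun z : S => z.1.1) (hy ⟨x, Subgroup.mem_zpowers x⟩)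
    have hc : Commute x y.1.1 := mul_inv_eq_iff_eq_mul.1 hxy
    have hy5 : Nat.Coprime (orderOf x) (orderOf y.1.1) := by
      rw [hx]
      refine (Nat.Prime.coprime_iff_not_dvd (by norm_num)).2 fun hd => hN (hd.trans ?_)
      rw [Subgroup.orderOf_coe]
      exact orderOf_dvd_natCard _
    have ho := hc.orderOf_mul_eq_mul_orderOf_of_coprime hy5
    have := h5 _ (mem_orderSet.2 ⟨_, ho⟩) (by rw [hx]; exact dvd_mul_right _ _)
    rw [hx] at this
    have h1' : orderOf y.1.1 = 1 := by omega
    exact h1 (by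
      have : y.1 = 1 := Subtype.ext (orderOf_eq_one_iff.1 h1')
      rw [← this]; exact y.2)⟩
  rw [Nat.card_of_isEmpty (α := MulAction.fixedPoints (Subgroup.zpowers x) S)] at h
  exact Nat.modEq_zero_iff_dvd.1 h

theorem not_normal_small (h5 : ∀ m ∈ orderSet G, 5 ∣ m → m = 5) {x : G} (hx : orderOf x = 5)
    (N : Subgroup G) [N.Normal] (hN : ¬ 5 ∣ Nat.card N) :
    Nat.card N % 5 = 1 ∧ Nat.card N ≠ 6 := by
  classical
  letI := Fintype.ofFinite N
  have h1 := card_mod_five h5 hx N hN {y | y ≠ 1} (fun g y hy h => hy (Subtype.ext (by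
    have h' := congrArg Subtype.val h
    simp at h'
    simpa using h'))) (by simp)
  have hc : Nat.card ({y | y ≠ 1} : Set N) = Nat.card N - 1 := by
    show Nat.card {y : N // y ≠ 1} = _
    rw [Nat.card_eq_fintype_card, Nat.card_eq_fintype_card, Fintype.card_subtype_compl,
      Fintype.card_subtype_eq]
  rw [hc] at h1
  have hpos : 0 < Nat.card N := Nat.card_pos
  refine ⟨by omega, fun h6 => ?_⟩
  haveI : Fact (Nat.Prime 2) := ⟨Nat.prime_two⟩
  haveI : Fact (Nat.Prime 3) := ⟨Nat.prime_three⟩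
  obtain ⟨t, ht⟩ := exists_prime_orderOf_dvd_card' 2 (show 2 ∣ Nat.card N by omega)
  obtain ⟨s, hs⟩ := exists_prime_orderOf_dvd_card' 3 (show 3 ∣ Nat.card N by omega)
  have h3 := card_mod_five h5 hx N hN {y | orderOf y = 3} (fun g y hy => by
    show orderOf _ = 3
    rw [← Subgroup.orderOf_coe]
    show orderOf (g * y.1 * g⁻¹) = 3
    rw [← MulAut.conj_apply, MulEquiv.orderOf_eq, Subgroup.orderOf_coe]
    exact hy) (by simp)
  have hlt : Nat.card ({y | orderOf y = 3} : Set N) ≤ 4 := by
    show Nat.card {y : N // orderOf y = 3} ≤ 4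
    rw [Nat.card_eq_fintype_card, Fintype.card_subtype]
    refine (Finset.card_le_card (t := (Finset.univ.erase 1).erase t) ?_).trans ?_
    · intro y hy
      simp only [Finset.mem_filter, Finset.mem_univ, true_and] at hy
      simp only [Finset.mem_erase, Finset.mem_univ, and_true]
      exact ⟨fun h => by rw [h, ht] at hy; omega, fun h => by rw [h, orderOf_one] at hy; omega⟩
    · have ht1 : t ≠ 1 := fun h => by rw [h, orderOf_one] at ht; omega
      rw [Finset.card_erase_of_mem (by simp [ht1]), Finset.card_erase_of_mem (Finset.mem_univ _),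
        Finset.card_univ, ← Nat.card_eq_fintype_card, h6]
  have hpos3 : 0 < Nat.card ({y | orderOf y = 3} : Set N) := by
    haveI : Nonempty ({y | orderOf y = 3} : Set N) := ⟨⟨s, hs⟩⟩
    exact Nat.card_pos
  have := Nat.le_of_dvd hpos3 h3
  omega

theorem simple_sixty (hcard : Nat.card G = 60) (hD : ∀ m ∈ orderSet G, m ∈ [5, 3, 2, 1])
    (h5 : orderCount G 5 = 24) (h3 : orderCount G 3 = 20) : IsSimpleGroup G := by
  haveI : Fact (Nat.Prime 3) := ⟨Nat.prime_three⟩
  haveI : Fact (Nat.Prime 5) := ⟨by norm_num⟩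
  haveI : Nontrivial G := Finite.one_lt_card_iff_nontrivial.1 (by omega)
  refine ⟨fun N hN => ?_⟩
  haveI := hN
  have hmul := N.card_mul_index
  rw [hcard] at hmul
  obtain ⟨x, hx⟩ := exists_prime_orderOf_dvd_card' 5 (show 5 ∣ Nat.card G by omega)
  have h5' : ∀ m ∈ orderSet G, 5 ∣ m → m = 5 := fun m hm hd => by
    have := hD m hm
    simp at this
    rcases this with rfl | rfl | rfl | rfl <;> first | rfl | omega
  have hdiv : Nat.card N ∣ 60 := ⟨_, hmul.symm⟩
  by_cases hN5 : 5 ∣ Nat.card N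
  · right
    have hi5 : ¬ 5 ∣ N.index := fun h => by
      have := Nat.mul_dvd_mul hN5 h
      rw [hmul] at this
      omega
    have hlt := orderCount_lt_of_not_dvd_index N hi5
    rw [h5] at hlt
    refine Subgroup.eq_top_of_card_eq N ?_
    rw [hcard]
    have : ∀ d ∈ Nat.divisors 60, 24 < d → d = 30 ∨ d = 60 := by decide
    rcases this _ (Nat.mem_divisors.2 ⟨hdiv, by norm_num⟩) hlt with h | h
    · exfalso
      have hi : N.index = 2 := by rw [h] at hmul; omega
      have := orderCount_lt_of_not_dvd_index (p := 3) N (by rw [hi]; omega)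
      have h15 := orderCount_lt_of_not_dvd_index (p := 5) N (by rw [hi]; omega)
      rw [h3] at this
      -- twenty elements of order 3 and twenty-four of order 5
      classical
      letI := Fintype.ofFinite G
      have hsub : (Finset.univ.filter fun g : G => orderOf g = 3) ∪
          (Finset.univ.filter fun g : G => orderOf g = 5) ⊆ Finset.univ.filter fun g => g ∈ N := by
        intro g hg
        simp only [Finset.mem_union, Finset.mem_filter, Finset.mem_univ, true_and] at hg ⊢
        rcases hg with hg | hg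
        · exact mem_of_sylow_le (p := 3) N (by rw [hi]; omega) (hg ▸ pow_orderOf_eq_one g)
        · exact mem_of_sylow_le (p := 5) N (by rw [hi]; omega) (hg ▸ pow_orderOf_eq_one g)
      have hc := Finset.card_le_card hsub
      rw [Finset.card_union_of_disjoint (Finset.disjoint_filter.2 fun g _ h1 h2 => by omega),
        ← Fintype.card_subtype, ← Fintype.card_subtype, ← Fintype.card_subtype,
        ← Nat.card_eq_fintype_card, ← Nat.card_eq_fintype_card, ← Nat.card_eq_fintype_card] at hc
      change orderCount G 3 + orderCount G 5 ≤ Nat.card N at hc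
      omega
    · exact h
  · left
    obtain ⟨h1, h6⟩ := not_normal_small h5' hx N hN5
    refine Subgroup.eq_bot_of_card_eq N ?_
    have : ∀ d ∈ Nat.divisors 60, ¬ 5 ∣ d → d % 5 = 1 → d = 1 ∨ d = 6 := by decide
    exact (this _ (Nat.mem_divisors.2 ⟨hdiv, by norm_num⟩) hN5 h1).resolve_right h6

theorem simple_three_sixty (hcard : Nat.card G = 360) (hD : ∀ m ∈ orderSet G, m ∈ [5, 4, 3, 2, 1])
    (h5 : orderCount G 5 = 144) (h3 : orderCount G 3 = 80) : IsSimpleGroup G := by
  haveI : Fact (Nat.Prime 3) := ⟨Nat.prime_three⟩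
  haveI : Fact (Nat.Prime 5) := ⟨by norm_num⟩
  haveI : Nontrivial G := Finite.one_lt_card_iff_nontrivial.1 (by omega)
  refine ⟨fun N hN => ?_⟩
  haveI := hN
  have hmul := N.card_mul_index
  rw [hcard] at hmul
  obtain ⟨x, hx⟩ := exists_prime_orderOf_dvd_card' 5 (show 5 ∣ Nat.card G by omega)
  have h5' : ∀ m ∈ orderSet G, 5 ∣ m → m = 5 := fun m hm hd => by
    have := hD m hm
    simp at this
    rcases this with rfl | rfl | rfl | rfl | rfl <;> first | rfl | omega
  have hdiv : Nat.card N ∈ Nat.divisors 360 := Nat.mem_divisors.2 ⟨⟨_, hmul.symm⟩, by norm_num⟩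
  by_cases hN5 : 5 ∣ Nat.card N
  · right
    have hi5 : ¬ 5 ∣ N.index := fun h => by
      have := Nat.mul_dvd_mul hN5 h
      rw [hmul] at this
      omega
    have hlt := orderCount_lt_of_not_dvd_index N hi5
    rw [h5] at hlt
    refine Subgroup.eq_top_of_card_eq N ?_
    rw [hcard]
    have : ∀ d ∈ Nat.divisors 360, 144 < d → d = 180 ∨ d = 360 := by decide +kernel
    rcases this _ hdiv hlt with h | h
    · exfalso
      have hi : N.index = 2 := by rw [h] at hmul; omega
      classical
      letI := Fintype.ofFinite G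
      have hsub : (Finset.univ.filter fun g : G => orderOf g = 3) ∪
          (Finset.univ.filter fun g : G => orderOf g = 5) ⊆ Finset.univ.filter fun g => g ∈ N := by
        intro g hg
        simp only [Finset.mem_union, Finset.mem_filter, Finset.mem_univ, true_and] at hg ⊢
        rcases hg with hg | hg
        · exact mem_of_sylow_le (p := 3) N (by rw [hi]; omega) (hg ▸ pow_orderOf_eq_one g)
        · exact mem_of_sylow_le (p := 5) N (by rw [hi]; omega) (hg ▸ pow_orderOf_eq_one g)
      have hc := Finset.card_le_card hsub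
      rw [Finset.card_union_of_disjoint (Finset.disjoint_filter.2 fun g _ h1 h2 => by omega),
        ← Fintype.card_subtype, ← Fintype.card_subtype, ← Fintype.card_subtype,
        ← Nat.card_eq_fintype_card, ← Nat.card_eq_fintype_card, ← Nat.card_eq_fintype_card] at hc
      change orderCount G 3 + orderCount G 5 ≤ Nat.card N at hc
      omega
    · exact h
  · left
    obtain ⟨h1, h6⟩ := not_normal_small h5' hx N hN5
    refine Subgroup.eq_bot_of_card_eq N ?_
    have : ∀ d ∈ Nat.divisors 360, ¬ 5 ∣ d → d % 5 = 1 → d = 1 ∨ d = 6 ∨ d = 36 := by decide +kernel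
    rcases this _ hdiv hN5 h1 with h | h | h
    · exact h
    · exact absurd h h6
    · exfalso
      have hi : N.index = 10 := by rw [h] at hmul; omega
      have := orderCount_lt_of_not_dvd_index (p := 3) N (by rw [hi]; omega)
      omega

theorem iso_alt_four (hcard : Nat.card G = 12) (h3 : orderCount G 3 = 8) :
    Nonempty (G ≃* alternatingGroup (Fin 4)) := by
  classical
  haveI : Fact (Nat.Prime 3) := ⟨Nat.prime_three⟩
  have hP : ∀ P : Sylow 3 G, Nat.card (P : Subgroup G) = 3 := fun P => by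
    rw [P.card_eq_multiplicity, hcard, show (12 : ℕ) = 4 * 3 from rfl,
      Nat.factorization_mul (by norm_num) (by norm_num), Finsupp.add_apply,
      Nat.Prime.factorization_self Nat.prime_three, Nat.factorization_eq_zero_of_not_dvd (by norm_num)]
    rfl
  have hsyl : Nat.card (Sylow 3 G) = 4 := by
    have hdvd : Nat.card (Sylow 3 G) ∣ 4 := by
      obtain ⟨P⟩ := Sylow.nonempty (p := 3) (G := G)
      have h1 := Sylow.card_dvd_index P
      have h2 := (P : Subgroup G).card_mul_index
      rw [hP, hcard] at h2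
      rwa [show (P : Subgroup G).index = 4 by omega] at h1
    have hne : Nat.card (Sylow 3 G) ≠ 1 := fun h1 => by
      haveI : Subsingleton (Sylow 3 G) := (Nat.card_eq_one_iff_unique.1 h1).1
      obtain ⟨P⟩ := Sylow.nonempty (p := 3) (G := G)
      haveI : (P : Subgroup G).Normal := Sylow.normal_of_subsingleton P
      have hi : (P : Subgroup G).index = 4 := by
        have h2 := (P : Subgroup G).card_mul_index; rw [hP, hcard] at h2; omega
      have := orderCount_lt_of_not_dvd_index (p := 3) (P : Subgroup G) (by rw [hi]; omega)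
      rw [hP, h3] at this
      omega
    have hmod := card_sylow_modEq_one 3 G
    have : ∀ d ∈ Nat.divisors 4, d ≠ 1 → d % 3 = 1 → d = 4 := by decide
    exact this _ (Nat.mem_divisors.2 ⟨hdvd, by norm_num⟩) hne hmod
  let e : Sylow 3 G ≃ Fin 4 := (Finite.equivFinOfCardEq hsyl)
  let f : G →* Equiv.Perm (Fin 4) :=
    (e.permCongrHom.toMonoidHom).comp (MulAction.toPermHom G (Sylow 3 G))
  have hker : f.ker = ⊥ := by
    have hN : ∀ P : Sylow 3 G, f.ker ≤ (P : Subgroup G) := by
      intro P g hg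
      have hgP : g • P = P := by
        have h := Equiv.congr_fun (MonoidHom.mem_ker.1 hg) (e P)
        simp [f] at h
        exact h
      have hnorm : g ∈ Subgroup.normalizer ((P : Subgroup G) : Set G) :=
        Sylow.smul_eq_iff_mem_normalizer.1 hgP
      have h2 := (Subgroup.normalizer ((P : Subgroup G) : Set G)).card_mul_index
      have h4 : (Subgroup.normalizer ((P : Subgroup G) : Set G)).index = 4 :=
        (Sylow.card_eq_index_normalizer P).symm.trans hsyl
      rw [h4, hcard] at h2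
      rwa [← Subgroup.eq_of_le_of_card_ge (P : Subgroup G).le_normalizer (by rw [hP]; omega)] at hnorm
    obtain ⟨P⟩ := Sylow.nonempty (p := 3) (G := G)
    have hdiv := Subgroup.card_dvd_of_le (hN P)
    rw [hP] at hdiv
    rcases (Nat.dvd_prime Nat.prime_three).1 hdiv with h | h
    · exact Subgroup.eq_bot_of_card_eq _ h
    · exfalso
      have hi : f.ker.index = 4 := by
        have h2 := f.ker.card_mul_index; rw [h, hcard] at h2; omega
      have := orderCount_lt_of_not_dvd_index (p := 3) f.ker (by rw [hi]; omega)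
      rw [h, h3] at this
      omega
  have hinj : Function.Injective f := (MonoidHom.ker_eq_bot_iff f).1 hker
  have hcr : Nat.card f.range = 12 := by
    rw [← Nat.card_congr (MonoidHom.ofInjective hinj).toEquiv, hcard]
  have hr : f.range = alternatingGroup (Fin 4) := by
    refine Equiv.Perm.eq_alternatingGroup_of_index_eq_two ?_
    have h2 := f.range.card_mul_index
    rw [hcr, Nat.card_perm, Nat.card_fin, show Nat.factorial 4 = 24 from rfl] at h2
    omega
  exact ⟨(MonoidHom.ofInjective hinj).trans (MulEquiv.subgroupCongr hr)⟩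

theorem range_orderOf_A4 :
    Set.range (orderOf : alternatingGroup (Fin 4) → ℕ) = {1, 2, 3} := by
  have h : ∀ g : alternatingGroup (Fin 4), g ^ 2 = 1 ∨ g ^ 3 = 1 := by decide +kernel
  have h2 : ∃ g : alternatingGroup (Fin 4), g ≠ 1 ∧ g ^ 2 = 1 := by decide +kernel
  have h3 : ∃ g : alternatingGroup (Fin 4), g ≠ 1 ∧ g ^ 3 = 1 := by decide +kernel
  haveI : Fact (Nat.Prime 2) := ⟨Nat.prime_two⟩
  haveI : Fact (Nat.Prime 3) := ⟨Nat.prime_three⟩
  ext m
  simp only [Set.mem_range, Set.mem_insert_iff, Set.mem_singleton_iff]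
  constructor
  · rintro ⟨g, rfl⟩
    rcases h g with h | h
    · rcases (Nat.dvd_prime Nat.prime_two).1 (orderOf_dvd_of_pow_eq_one h) with e | e <;> simp [e]
    · rcases (Nat.dvd_prime Nat.prime_three).1 (orderOf_dvd_of_pow_eq_one h) with e | e <;> simp [e]
  · rintro (rfl | rfl | rfl)
    · exact ⟨1, orderOf_one⟩
    · obtain ⟨g, hg1, hg⟩ := h2; exact ⟨g, orderOf_eq_prime hg hg1⟩
    · obtain ⟨g, hg1, hg⟩ := h3; exact ⟨g, orderOf_eq_prime hg hg1⟩

theorem alt_counts_four : orderCount (alternatingGroup (Fin 4)) 2 = 3 ∧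
    orderCount (alternatingGroup (Fin 4)) 3 = 8 := by
  haveI : Fact (Nat.Prime 2) := ⟨Nat.prime_two⟩
  haveI : Fact (Nat.Prime 3) := ⟨Nat.prime_three⟩
  simp only [orderCount_prime_eq, Nat.card_eq_fintype_card, Fintype.card_subtype]
  decide +kernel

theorem alt_counts_five : orderCount (alternatingGroup (Fin 5)) 2 = 15 ∧
    orderCount (alternatingGroup (Fin 5)) 3 = 20 ∧ orderCount (alternatingGroup (Fin 5)) 5 = 24 := by
  haveI : Fact (Nat.Prime 2) := ⟨Nat.prime_two⟩
  haveI : Fact (Nat.Prime 3) := ⟨Nat.prime_three⟩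
  haveI : Fact (Nat.Prime 5) := ⟨by norm_num⟩
  simp only [orderCount_prime_eq, Nat.card_eq_fintype_card, Fintype.card_subtype]
  decide +kernel

theorem alt_counts_six : orderCount (alternatingGroup (Fin 6)) 2 = 45 ∧
    orderCount (alternatingGroup (Fin 6)) 3 = 80 ∧ orderCount (alternatingGroup (Fin 6)) 4 = 90 ∧
    orderCount (alternatingGroup (Fin 6)) 5 = 144 := by
  haveI : Fact (Nat.Prime 2) := ⟨Nat.prime_two⟩
  haveI : Fact (Nat.Prime 3) := ⟨Nat.prime_three⟩
  haveI : Fact (Nat.Prime 5) := ⟨by norm_num⟩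
  simp only [orderCount_prime_eq, orderCount_four_eq, Nat.card_eq_fintype_card, Fintype.card_subtype]
  decide +kernel

theorem himg_of_eq {S : Set ℕ}
    (h : ((fun m : ℕ => Nat.card {g : G // orderOf g = m}) '' Set.range (orderOf : G → ℕ)) = S)
    (v : ℕ) : (∃ m ∈ orderSet G, orderCount G m = v) ↔ v ∈ S := by
  rw [← h, Set.mem_image]
  simp only [mem_orderSet, orderCount]

theorem nse_iso_four
    (h : ((fun m : ℕ => Nat.card {g : G // orderOf g = m}) '' Set.range (orderOf : G → ℕ)) =
      ((fun m : ℕ => Nat.card {g : alternatingGroup (Fin 4) // orderOf g = m}) ''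
        Set.range (orderOf : alternatingGroup (Fin 4) → ℕ))) :
    Nonempty (G ≃* alternatingGroup (Fin 4)) := by
  rw [range_orderOf_A4] at h
  simp only [Set.image_insert_eq, Set.image_singleton] at h
  change _ = ({orderCount _ 1, orderCount _ 2, orderCount _ 3} : Set ℕ) at h
  rw [orderCount_one, alt_counts_four.1, alt_counts_four.2] at h
  obtain ⟨L, -, hmap, hcard⟩ := nse_counts (G := G) 3 [8] [2, 3]
    (fun p => if p = 2 then 4 else if p = 3 then 1 else 0) nseTableFour [(3, 8), (2, 3), (1, 1)]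
    (fun v => (himg_of_eq h v).trans (by simp)) ⟨by norm_num, by norm_num⟩ (by simp) (by norm_num)
    (by simp) (by simp) (by decide) (by decide) (by decide +kernel) (by decide +kernel)
    nseSearch_four
  have h' := congrArg (List.map Prod.fst) hmap
  simp [Function.comp_def] at h'
  subst h'
  simp at hmap
  exact iso_alt_four (by rw [hcard]; rfl) hmap.1

theorem nse_iso_five
    (h : ((fun m : ℕ => Nat.card {g : G // orderOf g = m}) '' Set.range (orderOf : G → ℕ)) =
      ((fun m : ℕ => Nat.card {g : alternatingGroup (Fin 5) // orderOf g = m}) ''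
        Set.range (orderOf : alternatingGroup (Fin 5) → ℕ))) :
    Nonempty (G ≃* alternatingGroup (Fin 5)) := by
  rw [range_orderOf_A5] at h
  simp only [Set.image_insert_eq, Set.image_singleton] at h
  change _ = ({orderCount _ 1, orderCount _ 2, orderCount _ 3, orderCount _ 5} : Set ℕ) at h
  rw [orderCount_one, alt_counts_five.1, alt_counts_five.2.1, alt_counts_five.2.2] at h
  obtain ⟨L, hL, hmap, hcard⟩ := nse_counts (G := G) 15 [20, 24] [2, 3, 5]
    (fun p => if p = 2 then 4 else if p = 7 then 0 else 2) nseTableFive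
    [(5, 24), (3, 20), (2, 15), (1, 1)]
    (fun v => (himg_of_eq h v).trans (by simp)) ⟨by norm_num, by norm_num⟩ (by simp) (by norm_num)
    (by simp) (by simp) (by decide) (by decide) (by decide +kernel) (by decide +kernel)
    nseSearch_five
  have h' := congrArg (List.map Prod.fst) hmap
  simp [Function.comp_def] at h'
  subst h'
  simp at hmap
  haveI := simple_sixty (by rw [hcard]; rfl) (fun m hm => (hL m).2 hm) hmap.1 hmap.2.1
  exact Linear.simple_order_sixty_iso (by rw [hcard]; rfl)

theorem nse_iso_six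
    (h : ((fun m : ℕ => Nat.card {g : G // orderOf g = m}) '' Set.range (orderOf : G → ℕ)) =
      ((fun m : ℕ => Nat.card {g : alternatingGroup (Fin 6) // orderOf g = m}) ''
        Set.range (orderOf : alternatingGroup (Fin 6) → ℕ))) :
    Nonempty (G ≃* alternatingGroup (Fin 6)) := by
  rw [range_orderOf_A6] at h
  simp only [Set.image_insert_eq, Set.image_singleton] at h
  change _ = ({orderCount _ 1, orderCount _ 2, orderCount _ 3, orderCount _ 4, orderCount _ 5} :
    Set ℕ) at h
  rw [orderCount_one, alt_counts_six.1, alt_counts_six.2.1, alt_counts_six.2.2.1,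
    alt_counts_six.2.2.2] at h
  obtain ⟨L, hL, hmap, hcard⟩ := nse_counts (G := G) 45 [80, 90, 144] [2, 3, 5, 7]
    (fun p => if p = 2 then 5 else if p = 3 then 3 else if p = 5 then 2 else 1) nseTableSix
    [(5, 144), (4, 90), (3, 80), (2, 45), (1, 1)]
    (fun v => (himg_of_eq h v).trans (by simp)) ⟨by norm_num, by norm_num⟩ (by simp) (by norm_num)
    (by simp) (by simp) (by decide +kernel) (by decide) (by decide +kernel) (by decide +kernel)
    nseSearch_six
  have h' := congrArg (List.map Prod.fst) hmap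
  simp [Function.comp_def] at h'
  subst h'
  simp at hmap
  haveI := simple_three_sixty (by rw [hcard]; rfl) (fun m hm => (hL m).2 hm) hmap.1 hmap.2.2.1
  have hA : Nat.card (alternatingGroup (Fin 6)) = 360 := by
    have := two_mul_nat_card_alternatingGroup (α := Fin 6)
    rw [Nat.card_perm, Nat.card_fin, show Nat.factorial 6 = 720 from rfl] at this
    omega
  haveI : IsSimpleGroup (alternatingGroup (Fin 6)) := alternatingGroup.isSimpleGroup (by simp)
  obtain ⟨e₁⟩ := SmallPSL.Nine.nonempty_equiv_model (G := G) (by rw [hcard]; rfl)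
  obtain ⟨e₂⟩ := SmallPSL.Nine.nonempty_equiv_model hA
  exact ⟨e₁.trans e₂.symm⟩

end Cfsg.Agent.RecogA
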